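import Mathlib
import Cfsg.Agent.Lib.Helper46.S4Section
import Cfsg.Agent.Lib.Helper96.BaerSuzuki
import Cfsg.Agent.Lib.Lead.Cores

/-!
# Transvections on abelian normal `2`-subgroups of `S₄`-free groups
-/

set_option autoImplicit false

namespace Cfsg.Agent.Lib.Helper46.S4Transv

open Cfsg Cfsg.Agent.Lib.Helper33 Cfsg.Agent.Lib.Helper46.S4Section
open scoped Pointwise

variable {H : Type*} [Group H]

/-- a transvection `a` on the abelian normal subgroup `V`: its square centralizes `V`. -/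
theorem sq_mem_centralizer (V : Subgroup H) [hVn : V.Normal]
    (hVab : ∀ x ∈ V, ∀ y ∈ V, x * y = y * x) (a : H)
    (ha : (V ⊓ Subgroup.centralizer {a}).relIndex V = 2) :
    a ^ 2 ∈ Subgroup.centralizer (V : Set H) := by
  set F : Subgroup H := V ⊓ Subgroup.centralizer {a} with hF
  have hmemF : ∀ w, w ∈ F ↔ w ∈ V ∧ a * w = w * a := by
    intro w
    rw [hF, Subgroup.mem_inf, Subgroup.mem_centralizer_singleton_iff]
    constructor
    · rintro ⟨h1, h2⟩; exact ⟨h1, h2.symm⟩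
    · rintro ⟨h1, h2⟩; exact ⟨h1, h2.symm⟩
  have hidx : (F.subgroupOf V).index = 2 := ha
  rw [Subgroup.mem_centralizer_iff]
  intro w hw
  have hconj : ∀ v ∈ V, (a * v * a⁻¹ ∈ F ↔ v ∈ F) := by
    intro v hv
    rw [hmemF, hmemF]
    constructor
    · rintro ⟨-, h⟩
      refine ⟨hv, ?_⟩
      have := congrArg (fun x => a⁻¹ * x * a) h
      simpa [mul_assoc] using this
    · rintro ⟨-, h⟩
      have h6 : a * v * a⁻¹ = v := by rw [h]; group
      rw [h6]
      exact ⟨hv, h⟩
  have hc : a * w * a⁻¹ * w⁻¹ ∈ F := by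
    have h1 := Subgroup.mul_mem_iff_of_index_two hidx
      (a := (⟨a * w * a⁻¹, hVn.conj_mem w hw a⟩ : ↥V)) (b := (⟨w⁻¹, V.inv_mem hw⟩ : ↥V))
    have h3 : ((⟨a * w * a⁻¹, hVn.conj_mem w hw a⟩ : ↥V) ∈ F.subgroupOf V ↔
        (⟨w⁻¹, V.inv_mem hw⟩ : ↥V) ∈ F.subgroupOf V) := by
      rw [Subgroup.mem_subgroupOf, Subgroup.mem_subgroupOf]
      show a * w * a⁻¹ ∈ F ↔ w⁻¹ ∈ F
      rw [inv_mem_iff]
      exact hconj w hw
    have h4 := h1.2 h3
    rw [Subgroup.mem_subgroupOf] at h4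
    exact h4
  have hw2 : w * w ∈ F := by
    have h1 := Subgroup.mul_mem_iff_of_index_two hidx (a := (⟨w, hw⟩ : ↥V)) (b := (⟨w, hw⟩ : ↥V))
    have h4 := h1.2 Iff.rfl
    rw [Subgroup.mem_subgroupOf] at h4
    exact h4
  set c := a * w * a⁻¹ * w⁻¹ with hcdef
  have hcV : c ∈ V := ((hmemF c).1 hc).1
  have hca : a * c = c * a := ((hmemF c).1 hc).2
  have haw : a * w = c * w * a := by rw [hcdef]; group
  have hcw : c * w = w * c := hVab c hcV w hw
  have hc2 : c * c = 1 := by
    have h1 : a * (w * w) = (w * w) * a := ((hmemF _).1 hw2).2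
    have h2 : a * (w * w) = c * c * (w * w) * a := by
      calc a * (w * w) = (a * w) * w := by group
        _ = (c * w * a) * w := by rw [← haw]
        _ = c * w * (a * w) := by group
        _ = c * w * (c * w * a) := by rw [← haw]
        _ = c * (w * c) * w * a := by group
        _ = c * (c * w) * w * a := by rw [hcw]
        _ = c * c * (w * w) * a := by group
    rw [h1] at h2
    have h3 := congrArg (fun x => x * a⁻¹ * (w * w)⁻¹) h2
    simp only [mul_assoc, mul_inv_cancel, mul_one] at h3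
    exact h3.symm
  symm
  calc a ^ 2 * w = a * (a * w) := by rw [pow_two, mul_assoc]
    _ = a * (c * w * a) := by rw [haw]
    _ = (a * c) * w * a := by group
    _ = c * (a * w) * a := by rw [hca]; group
    _ = c * (c * w * a) * a := by rw [haw]
    _ = (c * c) * w * a ^ 2 := by rw [pow_two]; group
    _ = w * a ^ 2 := by rw [hc2, one_mul]

/-- two transvections on an abelian normal `2`-subgroup of an `S₄`-free group generate a `2`-group
modulo the centralizer. -/
theorem exists_pow_mem_of_transvections [Finite H] (V : Subgroup H) [hVn : V.Normal]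
    (hVab : ∀ x ∈ V, ∀ y ∈ V, x * y = y * x) (hV2 : IsPGroup 2 V) (a b : H)
    (ha : (V ⊓ Subgroup.centralizer {a}).relIndex V = 2)
    (hb : (V ⊓ Subgroup.centralizer {b}).relIndex V = 2)
    (hfree : ¬ Involves (Equiv.Perm (Fin 4)) H) :
    ∃ k : ℕ, (a * b) ^ 2 ^ k ∈ Subgroup.centralizer (V : Set H) := by
  classical
  set C := Subgroup.centralizer (V : Set H) with hC
  have hCn : C.Normal := Subgroup.normal_centralizer
  have hCmem : ∀ c ∈ C, ∀ v ∈ V, c * v * c⁻¹ = v := by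
    intro c hc v hv
    have := (Subgroup.mem_centralizer_iff.1 hc) v hv
    rw [← this]; group
  have ha2 : a ^ 2 ∈ C := sq_mem_centralizer V hVab a ha
  have hb2 : b ^ 2 ∈ C := sq_mem_centralizer V hVab b hb
  obtain ⟨k, m, hm, hkm⟩ := Nat.exists_eq_two_pow_mul_odd (orderOf_pos (a * b)).ne'
  refine ⟨k, ?_⟩
  by_contra hyC
  set y := (a * b) ^ 2 ^ k with hy
  have hym : y ^ m = 1 := by rw [hy, ← pow_mul, ← hkm, pow_orderOf_eq_one]
  have hyodd : Odd (orderOf y) := Odd.of_dvd_nat hm (orderOf_dvd_of_pow_eq_one hym)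
  -- `a` inverts `y` modulo `C`
  have hinv : a * y * a⁻¹ * y ∈ C := by
    rw [← QuotientGroup.eq_one_iff]
    set π := QuotientGroup.mk' C with hπ
    show π (a * y * a⁻¹ * y) = 1
    have h1 : π a * π a = 1 := by
      rw [← map_mul, ← pow_two]; exact (QuotientGroup.eq_one_iff _).2 ha2
    have h2 : π b * π b = 1 := by
      rw [← map_mul, ← pow_two]; exact (QuotientGroup.eq_one_iff _).2 hb2
    have ea : (π a)⁻¹ = π a := inv_eq_of_mul_eq_one_left h1
    have eb : (π b)⁻¹ = π b := inv_eq_of_mul_eq_one_left h2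
    have h3 : π a * (π a * π b) * (π a)⁻¹ = (π a * π b)⁻¹ := by
      rw [mul_inv_rev, ea, eb, ← mul_assoc, h1, one_mul]
    have h4 : π a * (π a * π b) ^ 2 ^ k * (π a)⁻¹ = ((π a * π b) ^ 2 ^ k)⁻¹ := by
      rw [← conj_pow, h3, inv_pow]
    rw [map_mul, map_mul, map_mul, map_inv, hy, map_pow, map_mul, h4, inv_mul_cancel]
  have hinvV : ∀ v ∈ V, (a * y * a⁻¹) * v * (a * y * a⁻¹)⁻¹ = y⁻¹ * v * y := by
    intro v hv
    have h1 := hCmem _ hinv (y⁻¹ * v * y) (by simpa using hVn.conj_mem v hv y⁻¹)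
    rw [← h1]; group
  let κ : ↥V →* ↥V :=
    { toFun := fun v => ⟨(v : H)⁻¹ * (y * v * y⁻¹),
        V.mul_mem (V.inv_mem v.2) (hVn.conj_mem v v.2 y)⟩
      map_one' := by
        apply Subtype.ext
        simp
      map_mul' := by
        intro v w
        apply Subtype.ext
        show ((v : H) * w)⁻¹ * (y * ((v : H) * w) * y⁻¹) =
          ((v : H)⁻¹ * (y * v * y⁻¹)) * ((w : H)⁻¹ * (y * w * y⁻¹))
        have h1 : (y * v * y⁻¹) * (w : H)⁻¹ = (w : H)⁻¹ * (y * v * y⁻¹) :=
          hVab _ (hVn.conj_mem v v.2 y) _ (V.inv_mem w.2)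
        have h2 : (v : H)⁻¹ * (w : H)⁻¹ = (w : H)⁻¹ * (v : H)⁻¹ :=
          hVab _ (V.inv_mem v.2) _ (V.inv_mem w.2)
        calc ((v : H) * w)⁻¹ * (y * ((v : H) * w) * y⁻¹)
            = (w : H)⁻¹ * (v : H)⁻¹ * ((y * v * y⁻¹) * (y * w * y⁻¹)) := by group
          _ = (v : H)⁻¹ * (w : H)⁻¹ * ((y * v * y⁻¹) * (y * w * y⁻¹)) := by rw [h2]
          _ = (v : H)⁻¹ * ((w : H)⁻¹ * (y * v * y⁻¹)) * (y * w * y⁻¹) := by group
          _ = (v : H)⁻¹ * ((y * v * y⁻¹) * (w : H)⁻¹) * (y * w * y⁻¹) := by rw [h1]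
          _ = _ := by group }
  set U : Subgroup H := κ.range.map V.subtype with hU
  have hmemU : ∀ v ∈ V, v⁻¹ * (y * v * y⁻¹) ∈ U := by
    intro v hv
    exact ⟨κ ⟨v, hv⟩, ⟨⟨v, hv⟩, rfl⟩, rfl⟩
  have hUex : ∀ u ∈ U, ∃ v ∈ V, u = v⁻¹ * (y * v * y⁻¹) := by
    rintro _ ⟨_, ⟨v, rfl⟩, rfl⟩
    exact ⟨v, v.2, rfl⟩
  have hUV : U ≤ V := Subgroup.map_subtype_le _
  -- if `y` centralizes `U` then it centralizes `V`
  have hF5 : ¬ ∀ u ∈ U, y * u = u * y := by
    intro hcen
    apply hyC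
    rw [hC, Subgroup.mem_centralizer_iff]
    intro v hv
    set u := v⁻¹ * (y * v * y⁻¹) with hu
    have huU : u ∈ U := hmemU v hv
    have hyv : y * v = v * u * y := by rw [hu]; group
    have hpow : ∀ j : ℕ, y ^ j * v = v * u ^ j * y ^ j := by
      intro j
      induction j with
      | zero => simp
      | succ j ih =>
        have hcj : y * u ^ j = u ^ j * y := (Commute.pow_right (hcen u huU) j)
        calc y ^ (j + 1) * v = y * (y ^ j * v) := by rw [pow_succ']; group
          _ = y * (v * u ^ j * y ^ j) := by rw [ih]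
          _ = (y * v) * u ^ j * y ^ j := by group
          _ = v * u * (y * u ^ j) * y ^ j := by rw [hyv]; group
          _ = v * u * (u ^ j * y) * y ^ j := by rw [hcj]
          _ = v * u ^ (j + 1) * y ^ (j + 1) := by rw [pow_succ' u, pow_succ' y]; group
    have h1 := hpow m
    rw [hym, one_mul, mul_one] at h1
    have hum : u ^ m = 1 := by
      have := congrArg (fun x => v⁻¹ * x) h1
      simpa using this.symm
    obtain ⟨n, hn⟩ := hV2 ⟨u, hUV huU⟩
    have hn' : u ^ 2 ^ n = 1 := congrArg Subtype.val hn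
    have h3 := pow_gcd_eq_one.2 ⟨hum, hn'⟩
    have h4 : Nat.gcd m (2 ^ n) = 1 :=
      Nat.Coprime.pow_right n (Nat.Coprime.symm (Nat.coprime_two_left.2 hm))
    rw [h4, pow_one] at h3
    rw [hyv, h3, mul_one]
  have hyU : ∀ u ∈ U, y * u * y⁻¹ ∈ U := by
    intro u hu
    obtain ⟨v, hv, rfl⟩ := hUex u hu
    have := hmemU (y * v * y⁻¹) (hVn.conj_mem v hv y)
    have e : y * (v⁻¹ * (y * v * y⁻¹)) * y⁻¹ = (y * v * y⁻¹)⁻¹ * (y * (y * v * y⁻¹) * y⁻¹) := by
      group
    rw [e]; exact this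
  have haU : ∀ u ∈ U, a * u * a⁻¹ ∈ U := by
    intro u hu
    obtain ⟨v, hv, rfl⟩ := hUex u hu
    set v₁ := a * v * a⁻¹ with hv₁
    have hv₁V : v₁ ∈ V := hVn.conj_mem v hv a
    set v₂ := y⁻¹ * v₁ * y with hv₂
    have hv₂V : v₂ ∈ V := by simpa using hVn.conj_mem v₁ hv₁V y⁻¹
    have h1 := hinvV v₁ hv₁V
    have e : a * (v⁻¹ * (y * v * y⁻¹)) * a⁻¹ = v₁⁻¹ * ((a * y * a⁻¹) * v₁ * (a * y * a⁻¹)⁻¹) := by
      rw [hv₁]; group
    rw [e, h1]
    have e2 : v₁⁻¹ * (y⁻¹ * v₁ * y) = (v₂⁻¹ * (y * v₂ * y⁻¹))⁻¹ := by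
      rw [hv₂]; group
    rw [e2]
    exact U.inv_mem (hmemU v₂ hv₂V)
  -- the order of `U`
  have hcardU : Nat.card U = κ.ker.index := by
    rw [Subgroup.index_ker, hU]
    exact (Nat.card_congr (Subgroup.equivMapOfInjective _ _
      (Subgroup.subtype_injective V)).toEquiv).symm
  set W : Subgroup H := (V ⊓ Subgroup.centralizer {a}) ⊓ (V ⊓ Subgroup.centralizer {b}) with hW
  have hWker : W.subgroupOf V ≤ κ.ker := by
    intro v hv
    rw [Subgroup.mem_subgroupOf] at hv
    obtain ⟨⟨-, h1'⟩, ⟨-, h2'⟩⟩ := hv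
    have h1 : (v : H) * a = a * v := Subgroup.mem_centralizer_singleton_iff.1 h1'
    have h2 : (v : H) * b = b * v := Subgroup.mem_centralizer_singleton_iff.1 h2'
    rw [MonoidHom.mem_ker]
    apply Subtype.ext
    show (v : H)⁻¹ * (y * v * y⁻¹) = 1
    have h3 : Commute (a * b) (v : H) := Commute.mul_left h1.symm h2.symm
    have h4 : y * v = v * y := (h3.pow_left _)
    rw [h4]; group
  have hWidx : (W.subgroupOf V).index ≤ 4 := by
    have := Subgroup.relIndex_inf_le (H := V ⊓ Subgroup.centralizer {a})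
      (K := V ⊓ Subgroup.centralizer {b}) (L := V)
    rw [ha, hb] at this
    exact this
  have hd1 : κ.ker.index ∣ (W.subgroupOf V).index := Subgroup.index_dvd_of_le hWker
  have hle4 : Nat.card U ≤ 4 := by
    rw [hcardU]
    exact (Nat.le_of_dvd (Nat.pos_of_ne_zero Subgroup.index_ne_zero_of_finite) hd1).trans hWidx
  obtain ⟨n, hn⟩ := IsPGroup.iff_card.1 hV2
  have hd2 : Nat.card U ∣ 2 ^ n := by
    rw [← hn]; exact Subgroup.card_dvd_of_le hUV
  obtain ⟨j, -, hj⟩ := (Nat.dvd_prime_pow Nat.prime_two).1 hd2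
  have hcard4 : Nat.card U = 4 := by
    have hj2 : j ≤ 2 := by
      by_contra hcon
      have h3 : 3 ≤ j := by omega
      have : 2 ^ 3 ≤ 2 ^ j := Nat.pow_le_pow_right (by norm_num) h3
      omega
    interval_cases j
    · exfalso
      apply hF5
      intro u hu
      rw [pow_zero, Subgroup.card_eq_one] at hj
      rw [hj, Subgroup.mem_bot] at hu
      rw [hu]; simp
    · exfalso
      apply hF5
      intro u hu
      rw [pow_one] at hj
      obtain ⟨x, -, hx⟩ := (Nat.card_eq_two_iff' (1 : ↥U)).1 hj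
      by_cases hu1 : u = 1
      · rw [hu1]; simp
      · have h1 := hx ⟨u, hu⟩ (fun h => hu1 (congrArg Subtype.val h))
        have h2 := hx ⟨y * u * y⁻¹, hyU u hu⟩ (fun h => hu1 (by
          have := congrArg Subtype.val h
          simpa using this))
        have h3 : y * u * y⁻¹ = u := congrArg Subtype.val (h2.trans h1.symm)
        calc y * u = (y * u * y⁻¹) * y := by group
          _ = u * y := by rw [h3]
    · exact hj
  -- the `2`-part of `a`
  obtain ⟨k', m', hm', hkm'⟩ := Nat.exists_eq_two_pow_mul_odd (orderOf_pos a).ne'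
  set t := a ^ m' with ht
  have ht2 : t ^ 2 ^ k' = 1 := by
    rw [ht, ← pow_mul, mul_comm, ← hkm', pow_orderOf_eq_one]
  obtain ⟨r, hr⟩ := hm'
  have hta : ∃ c ∈ C, t = a * c := by
    refine ⟨(a ^ 2) ^ r, C.pow_mem ha2 r, ?_⟩
    rw [ht, hr, ← pow_mul, pow_succ']
  apply hfree
  refine involves_perm4_of_fourGroup U hcard4 t y ?_ ?_ ⟨k', ht2⟩ hyodd ?_ ?_
  · exact Subgroup.pow_mem _ (Subgroup.mem_normalizer_fintype haU) m'
  · exact Subgroup.mem_normalizer_fintype hyU
  · intro htC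
    obtain ⟨c, hc, htc⟩ := hta
    have hau : ∀ u ∈ U, a * u * a⁻¹ = u := by
      intro u hu
      have h1 := (Subgroup.mem_centralizer_iff.1 htC) u hu
      have h2 := hCmem c hc u (hUV hu)
      rw [htc] at h1
      calc a * u * a⁻¹ = a * (c * u * c⁻¹) * a⁻¹ := by rw [h2]
        _ = (a * c * u) * (a * c)⁻¹ := by group
        _ = (u * (a * c)) * (a * c)⁻¹ := by rw [← h1]
        _ = u := by group
    apply hF5
    intro u hu
    have h1 := hinvV u (hUV hu)
    have h2 : (a * y * a⁻¹) * u * (a * y * a⁻¹)⁻¹ = y * u * y⁻¹ := by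
      have h3 : a⁻¹ * u * a = u := by
        have := hau u hu
        calc a⁻¹ * u * a = a⁻¹ * (a * u * a⁻¹) * a := by rw [this]
          _ = u := by group
      calc (a * y * a⁻¹) * u * (a * y * a⁻¹)⁻¹ = a * (y * (a⁻¹ * u * a) * y⁻¹) * a⁻¹ := by group
        _ = a * (y * u * y⁻¹) * a⁻¹ := by rw [h3]
        _ = y * u * y⁻¹ := hau _ (hyU u hu)
    rw [h2] at h1
    have h4 : Commute (y ^ 2) u := by
      show y ^ 2 * u = u * y ^ 2
      calc y ^ 2 * u = y * (y * u * y⁻¹) * y := by rw [pow_two]; group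
        _ = y * (y⁻¹ * u * y) * y := by rw [h1]
        _ = u * y ^ 2 := by rw [pow_two]; group
    exact commute_of_sq_commute hyodd h4
  · intro hyCU
    apply hF5
    intro u hu
    exact ((Subgroup.mem_centralizer_iff.1 hyCU) u hu).symm

theorem isPGroup_two_zpowers {X : Type*} [Group X] {w : X} {k : ℕ} (h : w ^ 2 ^ k = 1) :
    IsPGroup 2 (Subgroup.zpowers w) := by
  rintro ⟨x, hx⟩
  obtain ⟨i, rfl⟩ := Subgroup.mem_zpowers_iff.1 hx
  refine ⟨k, Subtype.ext ?_⟩
  show (w ^ i) ^ 2 ^ k = 1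
  rw [← zpow_natCast, ← zpow_mul, mul_comm, zpow_mul, zpow_natCast, h, one_zpow]

/-- two involutions whose product is a `2`-element generate a `2`-group. -/
theorem isPGroup_two_of_involutions {X : Type*} [Group X] {s t : X} (hs : s * s = 1)
    (ht : t * t = 1) {k : ℕ} (hst : (s * t) ^ 2 ^ k = 1) :
    IsPGroup 2 ↥(Subgroup.zpowers s ⊔ Subgroup.zpowers t) := by
  have h1 : IsPGroup 2 (Subgroup.zpowers s) := isPGroup_two_zpowers (k := 1) (by
    rw [pow_one, pow_two]; exact hs)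
  have h2 : IsPGroup 2 (Subgroup.zpowers (s * t)) := isPGroup_two_zpowers hst
  have es : s⁻¹ = s := inv_eq_of_mul_eq_one_left hs
  have et : t⁻¹ = t := inv_eq_of_mul_eq_one_left ht
  have hconj : s * (s * t) * s⁻¹ = (s * t)⁻¹ := by
    rw [mul_inv_rev, es, et, ← mul_assoc, hs, one_mul]
  have hN : Subgroup.zpowers s ≤ Subgroup.normalizer (Subgroup.zpowers (s * t) : Set X) := by
    rw [Subgroup.zpowers_le, Subgroup.mem_normalizer_iff]
    have key : ∀ n, n ∈ Subgroup.zpowers (s * t) → s * n * s⁻¹ ∈ Subgroup.zpowers (s * t) := by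
      intro n hn
      obtain ⟨i, rfl⟩ := Subgroup.mem_zpowers_iff.1 hn
      rw [← conj_zpow, hconj]
      exact Subgroup.zpow_mem _ (Subgroup.inv_mem _ (Subgroup.mem_zpowers _)) i
    intro n
    refine ⟨key n, fun h => ?_⟩
    have := key _ h
    rw [es] at this
    have e : s * (s * n * s) * s = (s * s) * n * (s * s) := by group
    rwa [e, hs, one_mul, mul_one] at this
  refine (IsPGroup.to_sup_of_normal_right' h1 h2 hN).to_le ?_
  refine sup_le le_sup_left ?_
  rw [Subgroup.zpowers_le]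
  have h5 : s ∈ Subgroup.zpowers s ⊔ Subgroup.zpowers (s * t) :=
    (le_sup_left : Subgroup.zpowers s ≤ _) (Subgroup.mem_zpowers s)
  have h6 : s * t ∈ Subgroup.zpowers s ⊔ Subgroup.zpowers (s * t) :=
    (le_sup_right : Subgroup.zpowers (s * t) ≤ _) (Subgroup.mem_zpowers _)
  have h7 := Subgroup.mul_mem _ (Subgroup.inv_mem _ h5) h6
  rwa [inv_mul_cancel_left] at h7

/-- conjugates of transvections are transvections. -/
theorem relIndex_conj (V : Subgroup H) [hVn : V.Normal] (a g : H) :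
    (V ⊓ Subgroup.centralizer {g * a * g⁻¹}).relIndex V =
      (V ⊓ Subgroup.centralizer {a}).relIndex V := by
  have h1 := Subgroup.relIndex_map_map_of_injective (f := (MulAut.conj g).toMonoidHom)
    (V ⊓ Subgroup.centralizer {a}) V (MulAut.conj g).injective
  have h2 : V.map (MulAut.conj g).toMonoidHom = V := by
    ext x
    constructor
    · rintro ⟨v, hv, rfl⟩
      exact hVn.conj_mem v hv g
    · intro hx
      refine ⟨g⁻¹ * x * g, by simpa using hVn.conj_mem x hx g⁻¹, ?_⟩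
      show g * (g⁻¹ * x * g) * g⁻¹ = x
      group
  have h3 : (V ⊓ Subgroup.centralizer {a}).map (MulAut.conj g).toMonoidHom =
      V ⊓ Subgroup.centralizer {g * a * g⁻¹} := by
    ext x
    constructor
    · rintro ⟨v, ⟨hv, hva⟩, rfl⟩
      refine ⟨hVn.conj_mem v hv g, ?_⟩
      have h4 : v * a = a * v := Subgroup.mem_centralizer_singleton_iff.1 hva
      apply Subgroup.mem_centralizer_singleton_iff.2
      show g * v * g⁻¹ * (g * a * g⁻¹) = g * a * g⁻¹ * (g * v * g⁻¹)
      calc g * v * g⁻¹ * (g * a * g⁻¹) = g * (v * a) * g⁻¹ := by group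
        _ = g * (a * v) * g⁻¹ := by rw [h4]
        _ = _ := by group
    · rintro ⟨hx, hxa⟩
      have h4 : x * (g * a * g⁻¹) = g * a * g⁻¹ * x := Subgroup.mem_centralizer_singleton_iff.1 hxa
      refine ⟨g⁻¹ * x * g, ⟨by simpa using hVn.conj_mem x hx g⁻¹, ?_⟩, ?_⟩
      · apply Subgroup.mem_centralizer_singleton_iff.2
        calc g⁻¹ * x * g * a = g⁻¹ * (x * (g * a * g⁻¹)) * g := by group
          _ = g⁻¹ * (g * a * g⁻¹ * x) * g := by rw [h4]
          _ = _ := by group
      · show g * (g⁻¹ * x * g) * g⁻¹ = x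
        group
  rw [h2, h3] at h1
  exact h1

/-- **Transvection lemma.** In an `S₄`-free group a transvection on an abelian normal `2`-subgroup
`V` lies in `O₂` modulo `C(V)`. -/
theorem transvection_mem_pCore [Finite H] (V : Subgroup H) [hVn : V.Normal]
    (hVab : ∀ x ∈ V, ∀ y ∈ V, x * y = y * x) (hV2 : IsPGroup 2 V) (a : H)
    (ha : (V ⊓ Subgroup.centralizer {a}).relIndex V = 2)
    (hfree : ¬ Involves (Equiv.Perm (Fin 4)) H) :
    (QuotientGroup.mk' (Subgroup.centralizer (V : Set H))) a ∈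
      pCore 2 (H ⧸ Subgroup.centralizer (V : Set H)) := by
  set C := Subgroup.centralizer (V : Set H) with hC
  set π := QuotientGroup.mk' C with hπ
  have hsq : ∀ b : H, (V ⊓ Subgroup.centralizer {b}).relIndex V = 2 → π b * π b = 1 := by
    intro b hb
    rw [← map_mul, ← pow_two]
    exact (QuotientGroup.eq_one_iff _).2 (sq_mem_centralizer V hVab b hb)
  have : Fact (Nat.Prime 2) := ⟨Nat.prime_two⟩
  have hBS := Cfsg.Agent.Lib.Helper96.baerSuzuki_normalClosure (p := 2)
    (Subgroup.zpowers (π a)) (by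
      intro g'
      obtain ⟨g, rfl⟩ := QuotientGroup.mk'_surjective C g'
      have e : MulAut.conj (QuotientGroup.mk' C g) • Subgroup.zpowers (π a) =
          Subgroup.zpowers (π (g * a * g⁻¹)) := by
        rw [map_mul, map_mul, map_inv]
        exact MonoidHom.map_zpowers (MulAut.conj (π g)).toMonoidHom (π a)
      rw [e]
      have hb : (V ⊓ Subgroup.centralizer {g * a * g⁻¹}).relIndex V = 2 := by
        rw [relIndex_conj, ha]
      obtain ⟨k, hk⟩ := exists_pow_mem_of_transvections V hVab hV2 a (g * a * g⁻¹) ha hb hfree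
      refine isPGroup_two_of_involutions (hsq a ha) (hsq _ hb) (k := k) ?_
      rw [← map_mul, ← map_pow]
      exact (QuotientGroup.eq_one_iff _).2 hk)
  exact Cfsg.Agent.Lib.Lead.le_pCore Subgroup.normalClosure_normal hBS
    (Subgroup.subset_normalClosure (Subgroup.mem_zpowers (π a)))

end Cfsg.Agent.Lib.Helper46.S4Transv
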