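import Cfsg.Agent.Lib.Helper46.Amalgam4
import Cfsg.Prelude.Def_LocalStructure

set_option autoImplicit false

namespace Cfsg.Agent.Lib.Helper46

open Cfsg

variable {X : Type*} [Group X] {p : ℕ} {M₁ M₂ : Subgroup X}

/-! ### Equivariance -/

theorem sylowCenterClosure_map_le [Fact p.Prime] (φ : X ≃* X) (H : Subgroup X) [Finite H] :
    (sylowCenterClosure p H).map φ.toMonoidHom ≤ sylowCenterClosure p (H.map φ.toMonoidHom) := by
  rw [Subgroup.map_le_iff_le_comap]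
  apply sylowCenterClosure_le
  intro S hS
  rw [← Subgroup.map_le_iff_le_comap, OZ_map]
  exact OZ_le_sylowCenterClosure (hS.map φ)

theorem sylowCenterClosure_map [Fact p.Prime] (φ : X ≃* X) (H : Subgroup X) [Finite H] :
    sylowCenterClosure p (H.map φ.toMonoidHom) = (sylowCenterClosure p H).map φ.toMonoidHom := by
  apply le_antisymm _ (sylowCenterClosure_map_le φ H)
  have := finite_map_equiv φ H
  have h1 := sylowCenterClosure_map_le (p := p) φ.symm (H.map φ.toMonoidHom)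
  rw [map_map_symm] at h1
  have h2 := Subgroup.map_mono (f := φ.toMonoidHom) h1
  rwa [map_symm_map] at h2

theorem stabilizer_smul (g : X) (δ : CosetVertex M₁ M₂) :
    MulAction.stabilizer X (g • δ) = (MulAction.stabilizer X δ).map (MulAut.conj g).toMonoidHom :=
  MulAction.stabilizer_smul_eq_stabilizer_map_conj g δ

theorem vertexZ_smul [Fact p.Prime] (h : IsCharPAmalgamPair p M₁ M₂) (g : X)
    (δ : CosetVertex M₁ M₂) :
    vertexZ p (g • δ) = (vertexZ p δ).map (MulAut.conj g).toMonoidHom := by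
  have := stabilizer_finite h δ
  unfold vertexZ
  rw [stabilizer_smul, sylowCenterClosure_map]

theorem vertexVIter_smul_le [Fact p.Prime] (h : IsCharPAmalgamPair p M₁ M₂) (g : X) (n : ℕ)
    (δ : CosetVertex M₁ M₂) :
    (vertexVIter p M₁ M₂ n δ).map (MulAut.conj g).toMonoidHom ≤ vertexVIter p M₁ M₂ n (g • δ) := by
  unfold vertexVIter
  rw [Subgroup.map_iSup]
  apply iSup_le
  rintro ⟨μ, hμ⟩
  rw [← vertexZ_smul h]
  have hd : (cosetGraph M₁ M₂).dist (g • δ) (g • μ) ≤ n := by rwa [dist_smul]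
  exact le_iSup (fun ν : {ν : CosetVertex M₁ M₂ // (cosetGraph M₁ M₂).dist (g • δ) ν ≤ n} =>
    vertexZ p (ν : CosetVertex M₁ M₂)) ⟨g • μ, hd⟩

theorem vertexVIter_smul [Fact p.Prime] (h : IsCharPAmalgamPair p M₁ M₂) (g : X) (n : ℕ)
    (δ : CosetVertex M₁ M₂) :
    vertexVIter p M₁ M₂ n (g • δ) = (vertexVIter p M₁ M₂ n δ).map (MulAut.conj g).toMonoidHom := by
  apply le_antisymm _ (vertexVIter_smul_le h g n δ)
  have h1 := vertexVIter_smul_le h g⁻¹ n (g • δ)
  rw [inv_smul_smul] at h1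
  have h2 := Subgroup.map_mono (f := (MulAut.conj g).toMonoidHom) h1
  rw [Subgroup.map_map] at h2
  convert h2 using 1
  symm
  convert Subgroup.map_id _
  ext x; simp [mul_assoc]

theorem stabilizer_le_normalizer_vertexVIter [Fact p.Prime] (h : IsCharPAmalgamPair p M₁ M₂) (n : ℕ)
    (δ : CosetVertex M₁ M₂) :
    MulAction.stabilizer X δ ≤ Subgroup.normalizer (vertexVIter p M₁ M₂ n δ : Set X) := by
  apply le_normalizer_of_map_conj_le
  intro g hg
  have := vertexVIter_smul_le h g n δ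
  rwa [show g • δ = δ from hg] at this

theorem vertexZ_le_vertexVIter {n : ℕ} {δ μ : CosetVertex M₁ M₂}
    (hd : (cosetGraph M₁ M₂).dist δ μ ≤ n) : vertexZ p μ ≤ vertexVIter p M₁ M₂ n δ :=
  le_iSup (fun ν : {ν : CosetVertex M₁ M₂ // (cosetGraph M₁ M₂).dist δ ν ≤ n} =>
    vertexZ p (ν : CosetVertex M₁ M₂)) ⟨μ, hd⟩

theorem vertexVIter_le {n : ℕ} {δ : CosetVertex M₁ M₂} {K : Subgroup X}
    (h : ∀ μ, (cosetGraph M₁ M₂).dist δ μ ≤ n → vertexZ p μ ≤ K) : vertexVIter p M₁ M₂ n δ ≤ K := by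
  unfold vertexVIter
  exact iSup_le fun μ => h μ.1 μ.2

/-- `V_μ^{(n)} ≤ V_λ^{(n+1)}` for adjacent vertices. -/
theorem vertexVIter_le_succ_of_adj (hconn : (cosetGraph M₁ M₂).Connected) {n : ℕ}
    {lam μ : CosetVertex M₁ M₂} (hadj : (cosetGraph M₁ M₂).Adj lam μ) :
    vertexVIter p M₁ M₂ n μ ≤ vertexVIter p M₁ M₂ (n + 1) lam := by
  apply vertexVIter_le
  intro ν hν
  apply vertexZ_le_vertexVIter
  have h1 : (cosetGraph M₁ M₂).dist lam ν ≤ (cosetGraph M₁ M₂).dist lam μ + (cosetGraph M₁ M₂).dist μ ν :=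
    hconn.dist_triangle
  have h2 : (cosetGraph M₁ M₂).dist lam μ = 1 := SimpleGraph.dist_eq_one_iff_adj.2 hadj
  omega

/-- `Z_λ ≤ ⟨Z_μ : μ ∈ Δ(λ)⟩`. -/
theorem vertexZ_le_of_neighbours [Fact p.Prime] (h : IsCharPAmalgamPair p M₁ M₂)
    (lam : CosetVertex M₁ M₂) {K : Subgroup X}
    (hK : ∀ μ, (cosetGraph M₁ M₂).Adj lam μ → vertexZ p μ ≤ K) : vertexZ p lam ≤ K := by
  obtain ⟨μ, hμ⟩ := exists_neighbour lam
  have hfin := stabilizer_finite h lam
  obtain ⟨T, hT⟩ := exists_isSylowIn p (edgeStabilizer lam μ)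
  have hTl := isSylowIn_vertex_of_edge h hμ hT
  have hTm := isSylowIn_vertex_of_edge' h hμ hT
  apply sylowCenterClosure_le
  intro S hS
  obtain ⟨g, hg, rfl⟩ := hTl.exists_conj hS
  have hadj : (cosetGraph M₁ M₂).Adj lam (g • μ) := by
    have := adj_smul g hμ
    rwa [show g • lam = lam from hg] at this
  refine le_trans ?_ (hK _ hadj)
  rw [vertexZ_smul h, ← OZ_map]
  exact Subgroup.map_mono (OZ_le_sylowCenterClosure hTm)

/-- `V_λ^{(n+1)} = ⟨V_μ^{(n)} : μ ∈ Δ(λ)⟩` (one inclusion). -/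
theorem vertexVIter_succ_le [Fact p.Prime] (h : IsCharPAmalgamPair p M₁ M₂) {n : ℕ}
    (lam : CosetVertex M₁ M₂) {K : Subgroup X}
    (hK : ∀ μ, (cosetGraph M₁ M₂).Adj lam μ → vertexVIter p M₁ M₂ n μ ≤ K) :
    vertexVIter p M₁ M₂ (n + 1) lam ≤ K := by
  have hconn := connected_of_charP h
  apply vertexVIter_le
  intro ν hν
  rcases Nat.eq_zero_or_pos ((cosetGraph M₁ M₂).dist lam ν) with h0 | hpos
  · have : lam = ν := hconn.dist_eq_zero_iff.1 h0
    subst this
    apply vertexZ_le_of_neighbours h lam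
    intro μ hμ
    exact (vertexZ_le_vertexVIter (by simp)).trans (hK μ hμ)
  · obtain ⟨k, hk⟩ : ∃ k, (cosetGraph M₁ M₂).dist lam ν = k + 1 :=
      ⟨_, (Nat.succ_pred_eq_of_pos hpos).symm⟩
    obtain ⟨μ, hμ, hμd⟩ := exists_adj_dist_eq hconn hk
    exact (vertexZ_le_vertexVIter (by omega)).trans (hK μ hμ)

/-- `Z_δ ≠ 1`. -/
theorem vertexZ_ne_bot [hp : Fact p.Prime] (h : IsCharPAmalgamPair p M₁ M₂) (δ : CosetVertex M₁ M₂) :
    vertexZ p δ ≠ ⊥ := by
  intro hZ
  obtain ⟨μ, hμ⟩ := exists_neighbour δ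
  obtain ⟨hfin, hdvd, -, -, -⟩ := edgeOK_of_adj h hμ
  obtain ⟨P⟩ : Nonempty (Sylow p (MulAction.stabilizer X δ)) := inferInstance
  have hPne : (P : Subgroup (MulAction.stabilizer X δ)) ≠ ⊥ := P.ne_bot_of_dvd_card hdvd
  have hnt : Nontrivial (P : Subgroup (MulAction.stabilizer X δ)) :=
    (Subgroup.nontrivial_iff_ne_bot _).2 hPne
  have hcn := P.isPGroup'.center_nontrivial
  obtain ⟨z, hz⟩ := exists_ne (1 : Subgroup.center (P : Subgroup (MulAction.stabilizer X δ)))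
  set S : Subgroup X := (P : Subgroup (MulAction.stabilizer X δ)).map (MulAction.stabilizer X δ).subtype
    with hS
  have hSs : IsSylowIn p S (MulAction.stabilizer X δ) := ⟨P, rfl⟩
  have hOZ : OZ p S = ⊥ := by
    rw [eq_bot_iff, ← hZ]
    exact OZ_le_sylowCenterClosure hSs
  have hZS : S ⊓ Subgroup.centralizer (S : Set X) = ⊥ :=
    eq_bot_of_omegaOne_eq_bot (hSs.isPGroup.to_le inf_le_left) hOZ
  have hzmem : (((z : (P : Subgroup (MulAction.stabilizer X δ))) : MulAction.stabilizer X δ) : X) ∈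
      S ⊓ Subgroup.centralizer (S : Set X) := by
    refine ⟨⟨_, (z : (P : Subgroup (MulAction.stabilizer X δ))).2, rfl⟩, ?_⟩
    change _ ∈ Subgroup.centralizer (S : Set X)
    rw [Subgroup.mem_centralizer_iff]
    rintro _ ⟨y, hy, rfl⟩
    have := Subgroup.mem_center_iff.1 z.2 ⟨y, hy⟩
    have h2 := congrArg (fun t : (P : Subgroup (MulAction.stabilizer X δ)) =>
      ((t : MulAction.stabilizer X δ) : X)) this
    simpa using h2
  rw [hZS, Subgroup.mem_bot] at hzmem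
  apply hz
  apply Subtype.ext
  apply Subtype.ext
  apply Subtype.ext
  simpa using hzmem

end Cfsg.Agent.Lib.Helper46
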