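import Cfsg.Agent.Lib.Helper46.Amalgam5
import Cfsg.Agent.Lib.Helper46.PGroupLemmas

set_option autoImplicit false

namespace Cfsg.Agent.Lib.Helper46

open Cfsg
open scoped commutatorElement

variable {X : Type*} [Group X] {p : ℕ} {M₁ M₂ : Subgroup X}

theorem le_normalizer_of_commutator_le {R W : Subgroup X} (h : ⁅W, R⁆ ≤ W) :
    R ≤ Subgroup.normalizer (W : Set X) := by
  apply le_normalizer_of_map_conj_le
  rintro r hr _ ⟨w, hw, rfl⟩
  have h1 : ⁅w, r⁆ ∈ W := h (Subgroup.commutator_mem_commutator hw hr)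
  have h2 : r * w * r⁻¹ = w * (w⁻¹ * ⁅w, r⁆⁻¹ * w) := by
    rw [commutatorElement_def]; group
  change r * w * r⁻¹ ∈ W
  rw [h2]
  exact W.mul_mem hw (W.mul_mem (W.mul_mem (W.inv_mem hw) (W.inv_mem h1)) hw)

theorem vertexVIter_key [Fact p.Prime] (h : IsSpeAmalgamPair p M₁ M₂) {lam μ : CosetVertex M₁ M₂}
    (hμ : (cosetGraph M₁ M₂).Adj lam μ) (n : ℕ)
    (hVQ : vertexVIter p M₁ M₂ (n + 1) lam ≤ vertexQ p lam)
    (hL : pElementClosure p (MulAction.stabilizer X lam) ≤
      Subgroup.normalizer (vertexVIter p M₁ M₂ n μ : Set X)) : False := by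
  have hconn := connected_of_charP h.1
  have h1 : vertexVIter p M₁ M₂ (n + 1) lam ≤ vertexVIter p M₁ M₂ n μ := by
    apply vertexVIter_succ_le h.1
    intro μ' hμ'
    obtain ⟨l, hl, rfl⟩ := spe_pElementClosure_transitive h hμ μ' hμ'
    rw [vertexVIter_smul h.1, map_conj_eq_of_mem_normalizer (hL hl)]
  have h2 : vertexVIter p M₁ M₂ (n + 1) lam = vertexVIter p M₁ M₂ n μ :=
    le_antisymm h1 (vertexVIter_le_succ_of_adj hconn hμ)
  have h3 : vertexVIter p M₁ M₂ n μ = ⊥ := by
    apply eq_bot_of_normalizer_locally_transitive h.1.1 lam μ hμ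
    · rw [← h2]
      exact le_inf (hVQ.trans (pCoreOf_le _)) (hVQ.trans (vertexQ_le_stabilizer_of_adj h.1 hμ))
    · intro ν hν
      obtain ⟨g, hg, hg2⟩ := neighbours_transitive lam μ ν hμ hν
      refine ⟨g, ?_, hg, hg2⟩
      rw [← h2]
      exact stabilizer_le_normalizer_vertexVIter h.1 _ _ hg
    · intro ν hν
      obtain ⟨g, hg, hg2⟩ := neighbours_transitive μ lam ν hμ.symm hν
      exact ⟨g, stabilizer_le_normalizer_vertexVIter h.1 _ _ hg, hg, hg2⟩
  apply vertexZ_ne_bot h.1 μ
  rw [eq_bot_iff, ← h3]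
  exact vertexZ_le_vertexVIter (by simp)

/-- `L_λ = O^p(L_λ) T` normalizes `W` as soon as `O^p(L_λ)` does and `G_λ ∩ G_μ` does. -/
theorem pElementClosure_le_normalizer [Fact p.Prime] (h : IsSpeAmalgamPair p M₁ M₂)
    {lam μ : CosetVertex M₁ M₂} (hμ : (cosetGraph M₁ M₂).Adj lam μ) {W : Subgroup X}
    (hR : (pResidual p ↥(pElementClosure p (MulAction.stabilizer X lam))).map
      (pElementClosure p (MulAction.stabilizer X lam)).subtype ≤ Subgroup.normalizer (W : Set X))
    (hE : edgeStabilizer lam μ ≤ Subgroup.normalizer (W : Set X)) :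
    pElementClosure p (MulAction.stabilizer X lam) ≤ Subgroup.normalizer (W : Set X) := by
  have hfin := stabilizer_finite h.1 lam
  have hfL : Finite (pElementClosure p (MulAction.stabilizer X lam)) :=
    Finite.of_injective (Subgroup.inclusion (pElementClosure_le _)) (Subgroup.inclusion_injective _)
  obtain ⟨T, hT⟩ := exists_isSylowIn p (edgeStabilizer lam μ)
  have hTl := isSylowIn_vertex_of_edge h.1 hμ hT
  have hTL : IsSylowIn p T (pElementClosure p (MulAction.stabilizer X lam)) :=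
    hTl.of_ge (le_pElementClosure_of_isPGroup hTl.isPGroup hTl.le) (pElementClosure_le _)
  rw [← pResidual_map_sup_isSylowIn hTL]
  exact sup_le hR (hT.le.trans hE)

theorem S2857_aux [Fact p.Prime] (h : IsSpeAmalgamPair p M₁ M₂) (lam : CosetVertex M₁ M₂) (m : ℕ)
    (hVQ : vertexVIter p M₁ M₂ (m + 2) lam ≤ vertexQ p lam) :
    ¬ ⁅vertexVIter p M₁ M₂ (m + 2) lam,
      ((pResidual p ↥(pElementClosure p (MulAction.stabilizer X lam))).map
        (pElementClosure p (MulAction.stabilizer X lam)).subtype)⁆ ≤ vertexVIter p M₁ M₂ m lam := by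
  intro hcon
  have hconn := connected_of_charP h.1
  obtain ⟨μ, hμ⟩ := exists_neighbour lam
  apply vertexVIter_key h hμ (m + 1) hVQ
  apply pElementClosure_le_normalizer h hμ
  · apply le_normalizer_of_commutator_le
    refine le_trans (Subgroup.commutator_mono (vertexVIter_le_succ_of_adj hconn hμ) le_rfl) ?_
    exact hcon.trans (vertexVIter_le_succ_of_adj hconn hμ.symm)
  · exact inf_le_right.trans (stabilizer_le_normalizer_vertexVIter h.1 _ _)

theorem S2856_aux [Fact p.Prime] (h : IsSpeAmalgamPair p M₁ M₂) (lam : CosetVertex M₁ M₂) (m : ℕ)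
    (hVQ : vertexVIter p M₁ M₂ (m + 1) lam ≤ vertexQ p lam) :
    ¬ ⁅vertexVIter p M₁ M₂ (m + 1) lam,
      ((pResidual p ↥(pElementClosure p (MulAction.stabilizer X lam))).map
        (pElementClosure p (MulAction.stabilizer X lam)).subtype)⁆ ≤
      ⁅vertexVIter p M₁ M₂ (m + 1) lam, vertexQ p lam⁆ := by
  intro hcon
  have hconn := connected_of_charP h.1
  have hfin := stabilizer_finite h.1 lam
  obtain ⟨μ, hμ⟩ := exists_neighbour lam
  set V := vertexVIter p M₁ M₂ (m + 1) lam with hV
  set W := vertexVIter p M₁ M₂ m μ with hW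
  set Q := vertexQ p lam with hQ
  have hWV : W ≤ V := vertexVIter_le_succ_of_adj hconn hμ
  have hGV : MulAction.stabilizer X lam ≤ Subgroup.normalizer (V : Set X) :=
    stabilizer_le_normalizer_vertexVIter h.1 _ _
  have hGQ : MulAction.stabilizer X lam ≤ Subgroup.normalizer (Q : Set X) := le_normalizer_pCoreOf _
  have hGW : MulAction.stabilizer X μ ≤ Subgroup.normalizer (W : Set X) :=
    stabilizer_le_normalizer_vertexVIter h.1 _ _
  have hQl : Q ≤ MulAction.stabilizer X lam := pCoreOf_le _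
  have hQm : Q ≤ MulAction.stabilizer X μ := vertexQ_le_stabilizer_of_adj h.1 hμ
  have hVQV : ⁅V, Q⁆ ≤ V := commutator_le_left_of_le_normalizer (hQl.trans hGV)
  have hW'V : W ⊔ ⁅V, Q⁆ ≤ V := sup_le hWV hVQV
  have hL : pElementClosure p (MulAction.stabilizer X lam) ≤
      Subgroup.normalizer ((W ⊔ ⁅V, Q⁆ : Subgroup X) : Set X) := by
    apply pElementClosure_le_normalizer h hμ
    · apply le_normalizer_of_commutator_le
      exact (Subgroup.commutator_mono hW'V le_rfl).trans (hcon.trans le_sup_right)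
    · apply le_normalizer_of_map_conj_le
      intro g hg
      rw [Subgroup.map_sup, Subgroup.map_commutator, map_conj_eq_of_mem_normalizer (hGW hg.2),
        map_conj_eq_of_mem_normalizer (hGV hg.1), map_conj_eq_of_mem_normalizer (hGQ hg.1)]
  have hVW' : V ≤ W ⊔ ⁅V, Q⁆ := by
    apply vertexVIter_succ_le h.1
    intro μ' hμ'
    obtain ⟨l, hl, rfl⟩ := spe_pElementClosure_transitive h hμ μ' hμ'
    rw [vertexVIter_smul h.1, ← map_conj_eq_of_mem_normalizer (hL hl)]
    exact Subgroup.map_mono le_sup_left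
  have hfQ : Finite Q := Finite.of_injective (Subgroup.inclusion hQl) (Subgroup.inclusion_injective _)
  have hQnil : Group.IsNilpotent Q := (pCoreOf_isPGroup _).isNilpotent
  have hVW : V ≤ W := le_of_le_sup_commutator hQnil hVQ (hWV.trans hVQ) (hQm.trans hGW) hVW'
  have hEq : V = W := le_antisymm hVW hWV
  apply vertexVIter_key h hμ m hVQ
  rw [← hW, ← hEq]
  exact (pElementClosure_le _).trans hGV

end Cfsg.Agent.Lib.Helper46
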