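import Mathlib
import Cfsg.Prelude.Def_Transfer

/-!
# From a normalized elementary abelian subgroup to a representation over the algebraic closure
-/

set_option autoImplicit false
set_option linter.unusedSectionVars false

namespace Cfsg.Agent.Lib.Helper46.ESBridge

open Module

theorem exists_rep_of_action {p : ℕ} [hp : Fact p.Prime] {N A : Type*} [Monoid N]
    [AddCommGroup A] [Finite A] [Module (ZMod p) A] (act₀ : N →* AddMonoid.End A) :
    ∃ (n : ℕ) (Φ : N →*
        Module.End (AlgebraicClosure (ZMod p)) (Fin n → AlgebraicClosure (ZMod p))),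
      (∀ g, Φ g = 1 → act₀ g = 1) ∧
      (∀ g, (∀ a, act₀ g a = a → a = 0) → ∀ v, Φ g v = v → v = 0) := by
  classical
  let act : N →* Module.End (ZMod p) A :=
    { toFun := fun g => AddMonoidHom.toZModLinearMap p (act₀ g)
      map_one' := by
        refine LinearMap.ext (fun a => ?_)
        rw [map_one]; rfl
      map_mul' := by
        intro g h
        refine LinearMap.ext (fun a => ?_)
        rw [map_mul]; rfl }
  have hact : ∀ g (a : A), act g a = act₀ g a := fun _ _ => rfl
  let b := Module.finBasis (ZMod p) A
  let R : Module.End (ZMod p) A →+* Module.End (AlgebraicClosure (ZMod p))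
      (Fin (finrank (ZMod p) A) → (AlgebraicClosure (ZMod p))) :=
    ((Matrix.toLinAlgEquiv' : Matrix (Fin (finrank (ZMod p) A)) (Fin (finrank (ZMod p) A))
        (AlgebraicClosure (ZMod p)) ≃ₐ[AlgebraicClosure (ZMod p)] _).toRingEquiv.toRingHom).comp
      ((algebraMap (ZMod p) (AlgebraicClosure (ZMod p))).mapMatrix.comp
        (LinearMap.toMatrixAlgEquiv b).toRingEquiv.toRingHom)
  have hR : Function.Injective R := by
    intro f g hfg
    have h1 : (algebraMap (ZMod p) (AlgebraicClosure (ZMod p))).mapMatrix
          (LinearMap.toMatrixAlgEquiv b f)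
        = (algebraMap (ZMod p) (AlgebraicClosure (ZMod p))).mapMatrix
          (LinearMap.toMatrixAlgEquiv b g) :=
      (Matrix.toLinAlgEquiv' : Matrix (Fin (finrank (ZMod p) A)) (Fin (finrank (ZMod p) A))
        (AlgebraicClosure (ZMod p)) ≃ₐ[AlgebraicClosure (ZMod p)] _).injective hfg
    have h2 : LinearMap.toMatrixAlgEquiv b f = LinearMap.toMatrixAlgEquiv b g :=
      Matrix.map_injective (algebraMap (ZMod p) (AlgebraicClosure (ZMod p))).injective h1
    exact (LinearMap.toMatrixAlgEquiv b).injective h2
  refine ⟨finrank (ZMod p) A, (R : _ →* _).comp act, ?_, ?_⟩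
  · intro g hg
    have h1 : act g = 1 := by
      apply hR
      rw [map_one]
      exact hg
    ext a
    rw [← hact, h1]; rfl
  · intro g hg v hv
    have hinj : Function.Injective (act g - 1 : Module.End (ZMod p) A) := by
      rw [← LinearMap.ker_eq_bot, LinearMap.ker_eq_bot']
      intro a ha
      rw [LinearMap.sub_apply, Module.End.one_apply, sub_eq_zero, hact] at ha
      exact hg a ha
    have hunit : IsUnit (act g - 1) := by
      rw [Module.End.isUnit_iff]
      exact ⟨hinj, LinearMap.injective_iff_surjective.1 hinj⟩
    have hunit' : IsUnit (R (act g - 1)) := hunit.map R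
    rw [map_sub, map_one, Module.End.isUnit_iff] at hunit'
    apply hunit'.1
    rw [map_zero, LinearMap.sub_apply, Module.End.one_apply, sub_eq_zero]
    exact hv

variable {G : Type*} [Group G]

/-- conjugation by an element of the normalizer, as an endomorphism of `V` -/
def conjHom (V : Subgroup G) (g : Subgroup.normalizer (V : Set G)) : V →* V where
  toFun v := ⟨(g : G) * v * (g : G)⁻¹, (Subgroup.mem_normalizer_iff.1 g.2 v).1 v.2⟩
  map_one' := by ext; simp
  map_mul' a b := by ext; simp

theorem conjHom_apply (V : Subgroup G) (g : Subgroup.normalizer (V : Set G)) (v : V) :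
    ((conjHom V g v : V) : G) = (g : G) * v * (g : G)⁻¹ := rfl

theorem exists_rep [Finite G] {p : ℕ} [hp : Fact p.Prime] (V : Subgroup G)
    (hV : Cfsg.IsElementaryAbelian p V) :
    ∃ (n : ℕ) (Φ : ↥(Subgroup.normalizer (V : Set G)) →*
        Module.End (AlgebraicClosure (ZMod p)) (Fin n → AlgebraicClosure (ZMod p))),
      (∀ g, Φ g = 1 → (g : G) ∈ Subgroup.centralizer (V : Set G)) ∧
      (∀ g : ↥(Subgroup.normalizer (V : Set G)),
        V ⊓ Subgroup.centralizer ({(g : G)} : Set G) = ⊥ → ∀ v, Φ g v = v → v = 0) := by
  classical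
  let _ : CommGroup V :=
    { (inferInstance : Group V) with mul_comm := fun a b => hV.1.is_comm.comm a b }
  let _ : Module (ZMod p) (Additive V) := AddCommGroup.zmodModule (n := p) (by
    intro a
    have h1 : (Additive.toMul a) ^ p = 1 := Subtype.ext (by simpa using hV.2 _ (Additive.toMul a).2)
    exact congrArg Additive.ofMul h1)
  let act₀ : ↥(Subgroup.normalizer (V : Set G)) →* AddMonoid.End (Additive V) :=
    { toFun := fun g => MonoidHom.toAdditive (conjHom V g)
      map_one' := by
        refine AddMonoidHom.ext (fun a => ?_)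
        have : conjHom V 1 (Additive.toMul a) = Additive.toMul a := by ext; simp [conjHom_apply]
        rw [MonoidHom.toAdditive_apply_apply, this]; rfl
      map_mul' := by
        intro g h
        refine AddMonoidHom.ext (fun a => ?_)
        have : conjHom V (g * h) (Additive.toMul a)
            = conjHom V g (conjHom V h (Additive.toMul a)) := by
          ext; simp [conjHom_apply, mul_assoc]
        rw [MonoidHom.toAdditive_apply_apply, this]; rfl }
  have hact : ∀ g (a : Additive V), act₀ g a = Additive.ofMul (conjHom V g (Additive.toMul a)) :=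
    fun _ _ => rfl
  obtain ⟨n, Φ, h1, h2⟩ := exists_rep_of_action (p := p) act₀
  refine ⟨n, Φ, ?_, ?_⟩
  · intro g hg
    have h3 := h1 g hg
    rw [Subgroup.mem_centralizer_iff]
    intro v hv
    have h4 := congrArg (fun f : AddMonoid.End (Additive V) => f (Additive.ofMul (⟨v, hv⟩ : V))) h3
    simp only [AddMonoid.End.coe_one, id] at h4
    rw [hact] at h4
    have h5 : ((conjHom V g ⟨v, hv⟩ : V) : G) = v :=
      congrArg (fun a : Additive V => ((Additive.toMul a : V) : G)) h4
    rw [conjHom_apply] at h5
    calc v * (g : G) = ((g : G) * v * (g : G)⁻¹) * g := by rw [h5]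
      _ = g * v := by group
  · intro g hg
    apply h2 g
    intro a ha
    rw [hact] at ha
    have h3 : ((conjHom V g (Additive.toMul a) : V) : G) = (Additive.toMul a : V) :=
      congrArg (fun a : Additive V => ((Additive.toMul a : V) : G)) ha
    rw [conjHom_apply] at h3
    have h4 : ((Additive.toMul a : V) : G) ∈ V ⊓ Subgroup.centralizer ({(g : G)} : Set G) := by
      refine ⟨(Additive.toMul a).2, ?_⟩
      show ((Additive.toMul a : V) : G) ∈ Subgroup.centralizer ({(g : G)} : Set G)
      rw [Subgroup.mem_centralizer_singleton_iff]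
      calc ((Additive.toMul a : V) : G) * g
          = ((g : G) * (Additive.toMul a : V) * (g : G)⁻¹) * g := by rw [h3]
        _ = g * (Additive.toMul a : V) := by group
    rw [hg, Subgroup.mem_bot] at h4
    have h5 : Additive.toMul a = 1 := Subtype.ext h4
    exact congrArg Additive.ofMul h5

end Cfsg.Agent.Lib.Helper46.ESBridge
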