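import Mathlib

/-!
# Representations of class-2 groups of central type with a twisting operator (part 1)

`S` is a finite dimensional space over an algebraically closed field, `ρ : Q →* End S`,
`x : End S` an operator with `x ρ(g) = ρ(σ g) x`; `S` irreducible under `ρ(Q)` and `x`;
commutators of `Q` central; the centre acts faithfully.  We show that `ρ(t)`, `t ∈ Q/Z`, is a
basis of `End S`.
-/

set_option autoImplicit false
set_option linter.unusedSectionVars false

namespace Cfsg.Agent.Lib.Helper46.ESRep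

open Module
open scoped commutatorElement

variable {E : Type*} [Field E] [IsAlgClosed E] {S : Type*} [AddCommGroup S] [Module E S]
  [FiniteDimensional E S] [Nontrivial S] {Q : Type*} [Group Q] [Finite Q]

/-- The standing hypotheses. -/
structure Data (ρ : Q →* Module.End E S) (x : Module.End E S) (σ : MulAut Q) (r : ℕ) : Prop where
  xr : x ^ r = 1
  rpos : 0 < r
  tw : ∀ g, x * ρ g = ρ (σ g) * x
  irr : ∀ W : Submodule E S, (∀ g, ∀ v ∈ W, ρ g v ∈ W) → (∀ v ∈ W, x v ∈ W) → W = ⊥ ∨ W = ⊤
  cl2 : ∀ g h : Q, ⁅g, h⁆ ∈ Subgroup.center Q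
  faith : ∀ z ∈ Subgroup.center Q, ρ z = 1 → z = 1
  fixZ : ∀ z ∈ Subgroup.center Q, σ z = z
  fpf : ∀ g, σ g * g⁻¹ ∈ Subgroup.center Q → g ∈ Subgroup.center Q
  cardQ : (Nat.card Q : E) ≠ 0

variable {ρ : Q →* Module.End E S} {x : Module.End E S} {σ : MulAut Q} {r : ℕ}

namespace Data

/-- Schur's lemma. -/
theorem schur (D : Data ρ x σ r) (T : Module.End E S) (hT : ∀ g, T * ρ g = ρ g * T)
    (hTx : T * x = x * T) : ∃ c : E, T = c • 1 := by
  obtain ⟨c, hc⟩ := Module.End.exists_eigenvalue T
  refine ⟨c, ?_⟩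
  have h1 : T.eigenspace c = ⊥ ∨ T.eigenspace c = ⊤ := by
    apply D.irr
    · intro g v hv
      rw [Module.End.mem_eigenspace_iff] at hv ⊢
      have := congrArg (fun f : Module.End E S => f v) (hT g)
      simp only [Module.End.mul_apply] at this
      rw [this, hv, map_smul]
    · intro v hv
      rw [Module.End.mem_eigenspace_iff] at hv ⊢
      have := congrArg (fun f : Module.End E S => f v) hTx
      simp only [Module.End.mul_apply] at this
      rw [this, hv, map_smul]
  rcases h1 with h1 | h1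
  · exact absurd h1 hc
  · ext v
    have : v ∈ T.eigenspace c := by rw [h1]; trivial
    rw [Module.End.mem_eigenspace_iff] at this
    simpa using this

theorem smul_one_injective {a b : E} (h : a • (1 : Module.End E S) = b • 1) : a = b := by
  obtain ⟨v, hv⟩ := exists_ne (0 : S)
  have := congrArg (fun f : Module.End E S => f v) h
  simp only [LinearMap.smul_apply, Module.End.one_apply] at this
  exact smul_left_injective E hv this

theorem rho_mul_inv (g : Q) : ρ g * ρ g⁻¹ = 1 := by rw [← map_mul, mul_inv_cancel, map_one]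
theorem rho_inv_mul (g : Q) : ρ g⁻¹ * ρ g = 1 := by rw [← map_mul, inv_mul_cancel, map_one]

theorem rho_ne_zero (g : Q) : ρ g ≠ 0 := by
  intro h
  have := rho_mul_inv (ρ := ρ) g
  rw [h, zero_mul] at this
  exact zero_ne_one this

theorem exists_scalar (D : Data ρ x σ r) {z : Q} (hz : z ∈ Subgroup.center Q) :
    ∃ c : E, ρ z = c • 1 := by
  apply D.schur
  · intro g
    rw [← map_mul, ← map_mul, Subgroup.mem_center_iff.1 hz g]
  · have := D.tw z
    rw [D.fixZ z hz] at this
    exact this.symm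

open Classical in
/-- the central character (0 outside the centre) -/
noncomputable def lam (D : Data ρ x σ r) (z : Q) : E :=
  if hz : z ∈ Subgroup.center Q then (D.exists_scalar hz).choose else 0

theorem rho_center (D : Data ρ x σ r) {z : Q} (hz : z ∈ Subgroup.center Q) :
    ρ z = D.lam z • 1 := by
  unfold lam
  rw [dif_pos hz]
  exact (D.exists_scalar hz).choose_spec

theorem lam_one (D : Data ρ x σ r) : D.lam 1 = 1 := by
  have := D.rho_center (Subgroup.one_mem _)
  rw [map_one] at this
  apply smul_one_injective (S := S)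
  rw [← this, one_smul]

theorem lam_mul (D : Data ρ x σ r) {z w : Q} (hz : z ∈ Subgroup.center Q)
    (hw : w ∈ Subgroup.center Q) : D.lam (z * w) = D.lam z * D.lam w := by
  apply smul_one_injective (S := S)
  rw [← D.rho_center (Subgroup.mul_mem _ hz hw), map_mul, D.rho_center hz, D.rho_center hw]
  simp [smul_smul, mul_comm]

theorem eq_one_of_lam (D : Data ρ x σ r) {z : Q} (hz : z ∈ Subgroup.center Q)
    (h : D.lam z = 1) : z = 1 := by
  apply D.faith z hz
  rw [D.rho_center hz, h, one_smul]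

/-- commutators are bimultiplicative -/
theorem comm_mul_left (D : Data ρ x σ r) (g h t : Q) : ⁅g * h, t⁆ = ⁅g, t⁆ * ⁅h, t⁆ := by
  have h1 := Subgroup.mem_center_iff.1 (D.cl2 h t) g
  -- g * ⁅h,t⁆ = ⁅h,t⁆ * g
  calc ⁅g * h, t⁆ = g * ⁅h, t⁆ * t * g⁻¹ * t⁻¹ := by
        simp only [commutatorElement_def]; group
    _ = ⁅h, t⁆ * g * t * g⁻¹ * t⁻¹ := by rw [h1]
    _ = ⁅h, t⁆ * ⁅g, t⁆ := by simp only [commutatorElement_def]; group
    _ = ⁅g, t⁆ * ⁅h, t⁆ := (Subgroup.mem_center_iff.1 (D.cl2 h t) _).symm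

theorem comm_mul_right (D : Data ρ x σ r) (g s t : Q) : ⁅g, s * t⁆ = ⁅g, s⁆ * ⁅g, t⁆ := by
  have h1 := Subgroup.mem_center_iff.1 (D.cl2 g t) s
  calc ⁅g, s * t⁆ = g * s * g⁻¹ * (g * t * g⁻¹ * t⁻¹) * s⁻¹ := by
        simp only [commutatorElement_def]; group
    _ = g * s * g⁻¹ * (⁅g, t⁆ * s⁻¹) := by simp only [commutatorElement_def]; group
    _ = g * s * g⁻¹ * (s⁻¹ * ⁅g, t⁆) := by
        rw [Subgroup.mem_center_iff.1 (D.cl2 g t) s⁻¹]
    _ = ⁅g, s⁆ * ⁅g, t⁆ := by simp only [commutatorElement_def]; group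

/-- the character `g ↦ λ([g,t])` -/
noncomputable def chi (D : Data ρ x σ r) (t : Q) : Q →* E where
  toFun g := D.lam ⁅g, t⁆
  map_one' := by
    have : ⁅(1 : Q), t⁆ = 1 := by simp [commutatorElement_def]
    rw [this, D.lam_one]
  map_mul' g h := by
    rw [D.comm_mul_left, D.lam_mul (D.cl2 _ _) (D.cl2 _ _)]

theorem chi_apply (D : Data ρ x σ r) (t g : Q) : D.chi t g = D.lam ⁅g, t⁆ := rfl

theorem chi_mul (D : Data ρ x σ r) (s t g : Q) : D.chi (s * t) g = D.chi s g * D.chi t g := by
  rw [chi_apply, chi_apply, chi_apply, D.comm_mul_right, D.lam_mul (D.cl2 _ _) (D.cl2 _ _)]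

theorem chi_one (D : Data ρ x σ r) (g : Q) : D.chi 1 g = 1 := by
  have : ⁅g, (1 : Q)⁆ = 1 := by simp [commutatorElement_def]
  rw [chi_apply, this, D.lam_one]

/-- the character in the other variable -/
noncomputable def chi' (D : Data ρ x σ r) (g : Q) : Q →* E where
  toFun t := D.chi t g
  map_one' := D.chi_one g
  map_mul' s t := D.chi_mul s t g

theorem chi_of_center (D : Data ρ x σ r) {t : Q} (ht : t ∈ Subgroup.center Q) (g : Q) :
    D.chi t g = 1 := by
  have : ⁅g, t⁆ = 1 := by
    rw [commutatorElement_def, Subgroup.mem_center_iff.1 ht g]; group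
  rw [chi_apply, this, D.lam_one]

theorem chi_of_center' (D : Data ρ x σ r) {g : Q} (hg : g ∈ Subgroup.center Q) (t : Q) :
    D.chi t g = 1 := by
  have : ⁅g, t⁆ = 1 := by
    rw [commutatorElement_def, ← Subgroup.mem_center_iff.1 hg t]; group
  rw [chi_apply, this, D.lam_one]

theorem chi_eq_one_iff (D : Data ρ x σ r) (t : Q) : D.chi t = 1 ↔ t ∈ Subgroup.center Q := by
  constructor
  · intro h
    rw [Subgroup.mem_center_iff]
    intro g
    have h1 : D.chi t g = 1 := by rw [h]; rfl
    have h2 := D.eq_one_of_lam (D.cl2 g t) h1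
    rw [commutatorElement_def] at h2
    calc g * t = (g * t * g⁻¹ * t⁻¹) * (t * g) := by group
      _ = t * g := by rw [h2, one_mul]
  · intro h
    ext g
    exact D.chi_of_center h g

theorem chi'_eq_one_iff (D : Data ρ x σ r) (g : Q) : D.chi' g = 1 ↔ g ∈ Subgroup.center Q := by
  constructor
  · intro h
    rw [Subgroup.mem_center_iff]
    intro t
    have h1 : D.chi t g = 1 := by
      have : D.chi' g t = 1 := by rw [h]; rfl
      exact this
    have h2 := D.eq_one_of_lam (D.cl2 g t) h1
    rw [commutatorElement_def] at h2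
    calc t * g = (g * t * g⁻¹ * t⁻¹)⁻¹ * (g * t) := by group
      _ = g * t := by rw [h2, inv_one, one_mul]
  · intro h
    ext t
    exact D.chi_of_center' h t

/-- the basic commutation relation -/
theorem conj_rho (D : Data ρ x σ r) (g t : Q) : ρ g * ρ t * ρ g⁻¹ = D.chi t g • ρ t := by
  have h1 : g * t * g⁻¹ = ⁅g, t⁆ * t := by simp only [commutatorElement_def]; group
  rw [← map_mul, ← map_mul, h1, map_mul, D.rho_center (D.cl2 g t), chi_apply]
  simp

end Data

end Cfsg.Agent.Lib.Helper46.ESRep
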