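import Cfsg.Agent.Lib.Helper46.ESRep1

/-!
# Representations of class-2 groups of central type (part 2): `ρ(Q)` spans `End S`
-/

set_option autoImplicit false
set_option linter.unusedSectionVars false

namespace Cfsg.Agent.Lib.Helper46.ESRep

open Module
open scoped commutatorElement

variable {E : Type*} [Field E] [IsAlgClosed E] {S : Type*} [AddCommGroup S] [Module E S]
  [FiniteDimensional E S] [Nontrivial S] {Q : Type*} [Group Q] [Fintype Q]
variable {ρ : Q →* Module.End E S} {x : Module.End E S} {σ : MulAut Q} {r : ℕ}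

namespace Data

theorem chi_ne_zero (D : Data ρ x σ r) (t g : Q) : D.chi t g ≠ 0 := by
  intro h
  have h1 : D.chi t (g * g⁻¹) = 1 := by rw [mul_inv_cancel, map_one]
  rw [map_mul, h, zero_mul] at h1
  exact zero_ne_one h1

theorem chi_inv_right (D : Data ρ x σ r) (t g : Q) : D.chi t g⁻¹ = D.chi t⁻¹ g := by
  have h1 : D.chi t g⁻¹ * D.chi t g = 1 := by rw [← map_mul, inv_mul_cancel, map_one]
  have h2 : D.chi t⁻¹ g * D.chi t g = 1 := by rw [← D.chi_mul, inv_mul_cancel, D.chi_one]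
  exact mul_right_cancel₀ (D.chi_ne_zero t g) (h1.trans h2.symm)

theorem sum_chi (D : Data ρ x σ r) (t : Q) [Decidable (t ∈ Subgroup.center Q)] :
    ∑ g : Q, D.chi t g = if t ∈ Subgroup.center Q then (Fintype.card Q : E) else 0 := by
  split_ifs with h
  · rw [(D.chi_eq_one_iff t).2 h]
    simp
  · exact sum_hom_units_eq_zero _ (fun h' => h ((D.chi_eq_one_iff t).1 h'))

theorem sum_chi' (D : Data ρ x σ r) (g : Q) [Decidable (g ∈ Subgroup.center Q)] :
    ∑ t : Q, D.chi t g = if g ∈ Subgroup.center Q then (Fintype.card Q : E) else 0 := by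
  split_ifs with h
  · have : ∀ t, D.chi t g = 1 := fun t => D.chi_of_center' h t
    simp [this]
  · exact sum_hom_units_eq_zero (D.chi' g) (fun h' => h ((D.chi'_eq_one_iff g).1 h'))

/-- the weight projection (not normalized) -/
noncomputable def proj (D : Data ρ x σ r) (t : Q) (a : Module.End E S) : Module.End E S :=
  ∑ g : Q, D.chi t g⁻¹ • (ρ g * a * ρ g⁻¹)

theorem proj_rho (D : Data ρ x σ r) (t s : Q) [Decidable (t⁻¹ * s ∈ Subgroup.center Q)] :
    D.proj t (ρ s) = if t⁻¹ * s ∈ Subgroup.center Q then (Fintype.card Q : E) • ρ s else 0 := by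
  unfold proj
  have h1 : ∀ g : Q, D.chi t g⁻¹ • (ρ g * ρ s * ρ g⁻¹) = D.chi (t⁻¹ * s) g • ρ s := by
    intro g
    rw [D.conj_rho, smul_smul, D.chi_inv_right, D.chi_mul]
  rw [Finset.sum_congr rfl (fun g _ => h1 g), ← Finset.sum_smul, D.sum_chi]
  split_ifs <;> simp

theorem proj_sum {ι : Type*} (D : Data ρ x σ r) (t : Q) (s : Finset ι)
    (f : ι → Module.End E S) : D.proj t (∑ i ∈ s, f i) = ∑ i ∈ s, D.proj t (f i) := by
  unfold proj
  rw [Finset.sum_comm]
  refine Finset.sum_congr rfl (fun g _ => ?_)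
  rw [Finset.mul_sum, Finset.sum_mul, Finset.smul_sum]

theorem proj_smul (D : Data ρ x σ r) (t : Q) (c : E) (a : Module.End E S) :
    D.proj t (c • a) = c • D.proj t a := by
  unfold proj
  rw [Finset.smul_sum]
  refine Finset.sum_congr rfl (fun g _ => ?_)
  rw [mul_smul_comm, smul_mul_assoc, smul_comm]

theorem conj_proj (D : Data ρ x σ r) (t h : Q) (a : Module.End E S) :
    ρ h * D.proj t a * ρ h⁻¹ = D.chi t h • D.proj t a := by
  unfold proj
  rw [Finset.mul_sum, Finset.sum_mul, Finset.smul_sum]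
  refine Fintype.sum_equiv (Equiv.mulLeft h) _ _ (fun g => ?_)
  simp only [Equiv.coe_mulLeft]
  rw [mul_smul_comm, smul_mul_assoc, smul_smul]
  have h1 : D.chi t h * D.chi t (h * g)⁻¹ = D.chi t g⁻¹ := by
    rw [mul_inv_rev, map_mul, mul_comm (D.chi t g⁻¹), ← mul_assoc, ← map_mul, mul_inv_cancel,
      map_one, one_mul]
  rw [h1]
  congr 1
  rw [map_mul, mul_inv_rev, map_mul]
  simp only [mul_assoc]

theorem sum_proj (D : Data ρ x σ r) (a : Module.End E S) :
    ∑ t : Q, D.proj t a = ((Fintype.card Q : E) * (Nat.card (Subgroup.center Q) : E)) • a := by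
  classical
  unfold proj
  rw [Finset.sum_comm]
  have h1 : ∀ g : Q, ∑ t : Q, D.chi t g⁻¹ • (ρ g * a * ρ g⁻¹)
      = if g ∈ Subgroup.center Q then (Fintype.card Q : E) • a else 0 := by
    intro g
    rw [← Finset.sum_smul, D.sum_chi']
    by_cases hg : g ∈ Subgroup.center Q
    · rw [if_pos hg, if_pos (Subgroup.inv_mem _ hg)]
      congr 1
      rw [D.rho_center hg, D.rho_center (Subgroup.inv_mem _ hg)]
      have : D.lam g * D.lam g⁻¹ = 1 := by
        rw [← D.lam_mul hg (Subgroup.inv_mem _ hg), mul_inv_cancel, D.lam_one]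
      simp [smul_smul, mul_comm, this]
    · rw [if_neg hg, if_neg (fun h => hg (by simpa using Subgroup.inv_mem _ h)), zero_smul]
  rw [Finset.sum_congr rfl (fun g _ => h1 g), ← Finset.sum_filter, Finset.sum_const, mul_smul,
    ← Nat.cast_smul_eq_nsmul E, smul_comm]
  congr 2
  rw [Nat.card_eq_fintype_card, Fintype.card_subtype]

/-- the operator `Y = ∑ ρ(σ g g⁻¹)` -/
noncomputable def Y (ρ : Q →* Module.End E S) (σ : MulAut Q) : Module.End E S :=
  ∑ g : Q, ρ (σ g * g⁻¹)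

theorem Y_tw (h : Q) : Y ρ σ * ρ h = ρ (σ h) * Y ρ σ := by
  unfold Y
  rw [Finset.mul_sum, Finset.sum_mul]
  refine (Fintype.sum_equiv (Equiv.mulLeft h) _ _ (fun g => ?_)).symm
  simp only [Equiv.coe_mulLeft]
  rw [← map_mul, ← map_mul]
  congr 1
  rw [map_mul]; group

theorem x_Y (D : Data ρ x σ r) : x * Y ρ σ = Y ρ σ * x := by
  unfold Y
  rw [Finset.mul_sum, Finset.sum_mul]
  refine Fintype.sum_equiv σ.toEquiv _ _ (fun g => ?_)
  rw [D.tw]
  congr 2
  simp

theorem card_center_ne_zero (D : Data ρ x σ r) : (Nat.card (Subgroup.center Q) : E) ≠ 0 := by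
  intro h
  apply D.cardQ
  obtain ⟨k, hk⟩ := Subgroup.card_subgroup_dvd_card (Subgroup.center Q)
  rw [hk, Nat.cast_mul, h, zero_mul]

theorem cardQ' (D : Data ρ x σ r) : (Fintype.card Q : E) ≠ 0 := by
  have := D.cardQ
  rwa [Nat.card_eq_fintype_card] at this

theorem Y_ne_zero (D : Data ρ x σ r) : Y ρ σ ≠ 0 := by
  classical
  intro h
  have h1 : D.proj 1 (Y ρ σ) = ((Fintype.card Q : E) * (Nat.card (Subgroup.center Q) : E)) • 1 := by
    unfold Y
    rw [D.proj_sum]
    have h2 : ∀ s : Q, D.proj 1 (ρ (σ s * s⁻¹))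
        = if s ∈ Subgroup.center Q then (Fintype.card Q : E) • 1 else 0 := by
      intro s
      rw [D.proj_rho]
      by_cases hs : s ∈ Subgroup.center Q
      · have h3 : σ s * s⁻¹ = 1 := by rw [D.fixZ s hs, mul_inv_cancel]
        rw [if_pos hs, h3, if_pos (by simp), map_one]
      · rw [if_neg hs, if_neg]
        intro h4
        apply hs
        apply D.fpf
        simpa using h4
    rw [Finset.sum_congr rfl (fun g _ => h2 g), ← Finset.sum_filter, Finset.sum_const, mul_smul,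
      ← Nat.cast_smul_eq_nsmul E, smul_comm]
    congr 2
    rw [Nat.card_eq_fintype_card, Fintype.card_subtype]
  rw [h] at h1
  have h5 : D.proj 1 (0 : Module.End E S) = 0 := by
    unfold proj; simp
  rw [h5] at h1
  have h6 : ((Fintype.card Q : E) * (Nat.card (Subgroup.center Q) : E)) = 0 := by
    apply smul_one_injective (S := S)
    rw [← h1, zero_smul]
  exact mul_ne_zero D.cardQ' D.card_center_ne_zero h6

theorem x_mul_pow (D : Data ρ x σ r) : x * x ^ (r - 1) = 1 := by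
  rw [← pow_succ', Nat.sub_add_cancel D.rpos, D.xr]

theorem pow_mul_x (D : Data ρ x σ r) : x ^ (r - 1) * x = 1 := by
  rw [← pow_succ, Nat.sub_add_cancel D.rpos, D.xr]

/-- `x` is a nonzero multiple of `Y`. -/
theorem exists_Y_eq (D : Data ρ x σ r) : ∃ c : E, c ≠ 0 ∧ Y ρ σ = c • x := by
  have hx' : ∀ h : Q, x ^ (r - 1) * ρ (σ h) = ρ h * x ^ (r - 1) := by
    intro h
    calc x ^ (r - 1) * ρ (σ h) = x ^ (r - 1) * (ρ (σ h) * x) * x ^ (r - 1) := by
          rw [mul_assoc, mul_assoc, D.x_mul_pow, mul_one]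
      _ = x ^ (r - 1) * (x * ρ h) * x ^ (r - 1) := by rw [D.tw]
      _ = ρ h * x ^ (r - 1) := by rw [← mul_assoc, D.pow_mul_x, one_mul]
  obtain ⟨c, hc⟩ := D.schur (x ^ (r - 1) * Y ρ σ) (by
      intro g
      rw [mul_assoc, Y_tw, ← mul_assoc, hx', mul_assoc]) (by
      rw [mul_assoc, ← D.x_Y, ← mul_assoc, ← mul_assoc, D.pow_mul_x, D.x_mul_pow])
  have h1 : Y ρ σ = c • x := by
    calc Y ρ σ = x * (x ^ (r - 1) * Y ρ σ) := by rw [← mul_assoc, D.x_mul_pow, one_mul]
      _ = c • x := by rw [hc]; simp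
  refine ⟨c, ?_, h1⟩
  intro h0
  rw [h0, zero_smul] at h1
  exact D.Y_ne_zero h1

/-- Schur's lemma for `Q` alone. -/
theorem schurQ (D : Data ρ x σ r) (T : Module.End E S) (hT : ∀ g, T * ρ g = ρ g * T) :
    ∃ c : E, T = c • 1 := by
  apply D.schur T hT
  obtain ⟨c, hc0, hc⟩ := D.exists_Y_eq
  have h1 : x = c⁻¹ • Y ρ σ := by rw [hc, smul_smul, inv_mul_cancel₀ hc0, one_smul]
  have h2 : T * Y ρ σ = Y ρ σ * T := by
    unfold Y
    rw [Finset.mul_sum, Finset.sum_mul]
    exact Finset.sum_congr rfl (fun g _ => hT _)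
  rw [h1, mul_smul_comm, smul_mul_assoc, h2]

theorem proj_mem (D : Data ρ x σ r) (t : Q) (a : Module.End E S) :
    ∃ c : E, D.proj t a = c • ρ t := by
  obtain ⟨c, hc⟩ := D.schurQ (ρ t⁻¹ * D.proj t a) (by
    intro h
    have h1 : ρ h * (ρ t⁻¹ * D.proj t a) * ρ h⁻¹ = ρ t⁻¹ * D.proj t a := by
      calc ρ h * (ρ t⁻¹ * D.proj t a) * ρ h⁻¹
          = (ρ h * ρ t⁻¹ * ρ h⁻¹) * (ρ h * D.proj t a * ρ h⁻¹) := by
            simp only [mul_assoc]
            rw [← mul_assoc (ρ h⁻¹) (ρ h), rho_inv_mul, one_mul]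
        _ = ρ t⁻¹ * D.proj t a := by
            rw [D.conj_rho, D.conj_proj, smul_mul_smul_comm, ← D.chi_mul, inv_mul_cancel,
              D.chi_one, one_smul]
    calc ρ t⁻¹ * D.proj t a * ρ h = (ρ h * (ρ t⁻¹ * D.proj t a) * ρ h⁻¹) * ρ h := by rw [h1]
      _ = ρ h * (ρ t⁻¹ * D.proj t a) := by rw [mul_assoc _ (ρ h⁻¹), rho_inv_mul, mul_one])
  refine ⟨c, ?_⟩
  calc D.proj t a = ρ t * (ρ t⁻¹ * D.proj t a) := by rw [← mul_assoc, rho_mul_inv, one_mul]
    _ = c • ρ t := by rw [hc]; simp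

/-- `ρ(Q)` spans `End S`. -/
theorem span_eq_top (D : Data ρ x σ r) : Submodule.span E (Set.range ρ) = ⊤ := by
  rw [eq_top_iff]
  intro a _
  have h1 := D.sum_proj a
  have h2 : ((Fintype.card Q : E) * (Nat.card (Subgroup.center Q) : E)) ≠ 0 :=
    mul_ne_zero D.cardQ' D.card_center_ne_zero
  have h3 : a = ((Fintype.card Q : E) * (Nat.card (Subgroup.center Q) : E))⁻¹ •
      ∑ t : Q, D.proj t a := by
    rw [h1, smul_smul, inv_mul_cancel₀ h2, one_smul]
  rw [h3]
  apply Submodule.smul_mem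
  apply Submodule.sum_mem
  intro t _
  obtain ⟨c, hc⟩ := D.proj_mem t a
  rw [hc]
  exact Submodule.smul_mem _ _ (Submodule.subset_span ⟨t, rfl⟩)

end Data

end Cfsg.Agent.Lib.Helper46.ESRep
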