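import Cfsg.Agent.Lib.Helper46.ESRep2

/-!
# Representations of class-2 groups of central type (part 3): dimension of `End S`,
orbit counting, upper bound for the centralizer of `x`.
-/

set_option autoImplicit false
set_option linter.unusedSectionVars false

namespace Cfsg.Agent.Lib.Helper46.ESRep

open Module
open scoped commutatorElement

/-- Orbit count for a permutation of prime order with a unique fixed point. -/
theorem card_orbits {B : Type*} [Finite B] (τ : Equiv.Perm B) (r : ℕ) (hr : r.Prime)
    (hτ : τ ^ r = 1) (b₀ : B) (h0 : τ b₀ = b₀) (hfix : ∀ b, τ b = b → b = b₀)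
    (hne : ∃ b, b ≠ b₀) :
    Nat.card (Quotient (MulAction.orbitRel (Subgroup.zpowers τ) B)) * r
      = Nat.card B + (r - 1) := by
  classical
  have := Fintype.ofFinite B
  have hτ1 : τ ≠ 1 := by
    obtain ⟨b, hb⟩ := hne
    intro h
    exact hb (hfix b (by rw [h]; rfl))
  have hord : orderOf τ = r := by
    have h1 := orderOf_dvd_of_pow_eq_one hτ
    rcases (Nat.dvd_prime hr).1 h1 with h | h
    · exact absurd (orderOf_eq_one_iff.1 h) hτ1
    · exact h
  have hcard : Nat.card (Subgroup.zpowers τ) = r := by rw [Nat.card_zpowers, hord]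
  have : Fact r.Prime := ⟨hr⟩
  have hB := MulAction.sum_card_fixedBy_eq_card_orbits_mul_card_group (Subgroup.zpowers τ) B
  have hfixed : ∀ g : Subgroup.zpowers τ, g ≠ 1 →
      Fintype.card (MulAction.fixedBy B g) = 1 := by
    intro g hg
    rw [Fintype.card_eq_one_iff]
    have htop : Subgroup.zpowers g = ⊤ := zpowers_eq_top_of_prime_card hcard hg
    have hb0 : b₀ ∈ MulAction.fixedBy B g := by
      rw [MulAction.mem_fixedBy]
      have h1 : (⟨τ, Subgroup.mem_zpowers τ⟩ : Subgroup.zpowers τ) ∈
          MulAction.stabilizer (Subgroup.zpowers τ) b₀ := by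
        rw [MulAction.mem_stabilizer_iff]; exact h0
      have h2 : ∀ y : Subgroup.zpowers τ, y ∈ MulAction.stabilizer (Subgroup.zpowers τ) b₀ := by
        rintro ⟨y, hy⟩
        obtain ⟨k, rfl⟩ := Subgroup.mem_zpowers_iff.1 hy
        have := Subgroup.zpow_mem _ h1 k
        convert this using 1
        exact Subtype.ext (by simp)
      exact MulAction.mem_stabilizer_iff.1 (h2 g)
    refine ⟨⟨b₀, hb0⟩, ?_⟩
    rintro ⟨b, hb⟩
    rw [MulAction.mem_fixedBy] at hb
    have h1 : g ∈ MulAction.stabilizer (Subgroup.zpowers τ) b := MulAction.mem_stabilizer_iff.2 hb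
    have h2 : Subgroup.zpowers g ≤ MulAction.stabilizer (Subgroup.zpowers τ) b :=
      Subgroup.zpowers_le.2 h1
    rw [htop] at h2
    have h3 : (⟨τ, Subgroup.mem_zpowers τ⟩ : Subgroup.zpowers τ) ∈
        MulAction.stabilizer (Subgroup.zpowers τ) b := h2 trivial
    have h4 : τ b = b := MulAction.mem_stabilizer_iff.1 h3
    exact Subtype.ext (hfix b h4)
  have hone : Fintype.card (MulAction.fixedBy B (1 : Subgroup.zpowers τ)) = Fintype.card B := by
    apply Fintype.card_of_subtype
    intro b
    simp
  rw [← Finset.add_sum_erase _ _ (Finset.mem_univ (1 : Subgroup.zpowers τ)), hone,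
    Finset.sum_congr rfl (fun g hg => hfixed g (Finset.ne_of_mem_erase hg))] at hB
  simp only [Finset.sum_const, smul_eq_mul, mul_one, Finset.card_erase_of_mem (Finset.mem_univ _),
    Finset.card_univ] at hB
  rw [Nat.card_eq_fintype_card, Nat.card_eq_fintype_card]
  rw [Nat.card_eq_fintype_card] at hcard
  rw [hcard] at hB
  exact hB.symm

variable {E : Type*} [Field E] [IsAlgClosed E] {S : Type*} [AddCommGroup S] [Module E S]
  [FiniteDimensional E S] [Nontrivial S] {Q : Type*} [Group Q] [Fintype Q]
variable {ρ : Q →* Module.End E S} {x : Module.End E S} {σ : MulAut Q} {r : ℕ}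

namespace Data

theorem rho_mul_center (D : Data ρ x σ r) (g : Q) {z : Q} (hz : z ∈ Subgroup.center Q) :
    ρ (g * z) = D.lam z • ρ g := by
  rw [map_mul, D.rho_center hz]; simp

theorem linearIndependent_out (D : Data ρ x σ r) :
    LinearIndependent E (fun c : Q ⧸ Subgroup.center Q => ρ c.out) := by
  classical
  rw [Fintype.linearIndependent_iff]
  intro a ha c₀
  have h1 := congrArg (D.proj c₀.out) ha
  rw [D.proj_sum] at h1
  have h2 : ∀ c : Q ⧸ Subgroup.center Q, D.proj c₀.out (a c • ρ c.out)
      = if c = c₀ then (a c₀ * (Fintype.card Q : E)) • ρ c₀.out else 0 := by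
    intro c
    rw [D.proj_smul, D.proj_rho]
    by_cases hc : c = c₀
    · subst hc
      rw [if_pos rfl, if_pos (by simp), smul_smul]
    · rw [if_neg hc, if_neg, smul_zero]
      intro h
      apply hc
      have := QuotientGroup.eq.2 h
      rw [QuotientGroup.out_eq', QuotientGroup.out_eq'] at this
      exact this.symm
  rw [Finset.sum_congr rfl (fun c _ => h2 c)] at h1
  simp only [Finset.sum_ite_eq', Finset.mem_univ, if_true] at h1
  have h3 : D.proj c₀.out (0 : Module.End E S) = 0 := by unfold proj; simp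
  rw [h3] at h1
  rcases smul_eq_zero.1 h1 with h | h
  · rcases mul_eq_zero.1 h with h | h
    · exact h
    · exact absurd h D.cardQ'
  · exact absurd h (rho_ne_zero _)

theorem span_out (D : Data ρ x σ r) :
    Submodule.span E (Set.range (fun c : Q ⧸ Subgroup.center Q => ρ c.out)) = ⊤ := by
  rw [eq_top_iff, ← D.span_eq_top, Submodule.span_le]
  rintro _ ⟨g, rfl⟩
  obtain ⟨h, hh⟩ := QuotientGroup.mk_out_eq_mul (Subgroup.center Q) g
  have h1 : g = (QuotientGroup.mk g : Q ⧸ Subgroup.center Q).out * (h : Q)⁻¹ := by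
    rw [hh]; group
  have h2 : ρ g = D.lam (h : Q)⁻¹ • ρ (QuotientGroup.mk g : Q ⧸ Subgroup.center Q).out := by
    conv_lhs => rw [h1]
    exact D.rho_mul_center _ (Subgroup.inv_mem _ h.2)
  show ρ g ∈ _
  rw [h2]
  exact Submodule.smul_mem _ _ (Submodule.subset_span ⟨_, rfl⟩)

/-- `(dim S)² = |Q : Z(Q)|`. -/
theorem finrank_sq (D : Data ρ x σ r) :
    finrank E S * finrank E S = (Subgroup.center Q).index := by
  classical
  have b := Basis.mk D.linearIndependent_out (le_of_eq D.span_out.symm)
  have h1 := finrank_eq_card_basis b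
  rw [Module.finrank_linearMap] at h1
  rw [h1, Subgroup.index, Nat.card_eq_fintype_card]

end Data

end Cfsg.Agent.Lib.Helper46.ESRep
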