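import Cfsg.Agent.Lib.Helper46.ESRep3

/-!
# Representations of class-2 groups of central type (part 4): upper bound for `dim C(x)`.
-/

set_option autoImplicit false
set_option linter.unusedSectionVars false

namespace Cfsg.Agent.Lib.Helper46.ESRep

open Module
open scoped commutatorElement

section cent
variable {E : Type*} [Field E] {S : Type*} [AddCommGroup S] [Module E S]

/-- the centralizer of `x` in `End S` -/
def cent (x : Module.End E S) : Submodule E (Module.End E S) where
  carrier := {a | x * a = a * x}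
  add_mem' := by
    intro a b ha hb
    simp only [Set.mem_ofPred_eq] at *
    rw [mul_add, add_mul, ha, hb]
  zero_mem' := by simp
  smul_mem' := by
    intro c a ha
    simp only [Set.mem_ofPred_eq] at *
    rw [mul_smul_comm, smul_mul_assoc, ha]

theorem mem_cent {x a : Module.End E S} : a ∈ cent x ↔ x * a = a * x := Iff.rfl

/-- the averaging operator `a ↦ ∑_{i<r} x^i a x^{-i}` -/
noncomputable def avg (x : Module.End E S) (r : ℕ) : Module.End E S →ₗ[E] Module.End E S :=
  ∑ i ∈ Finset.range r, (LinearMap.mulLeft E (x ^ i)) ∘ₗ (LinearMap.mulRight E ((x ^ (r - 1)) ^ i))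

theorem avg_apply (x : Module.End E S) (r : ℕ) (a : Module.End E S) :
    avg x r a = ∑ i ∈ Finset.range r, x ^ i * (a * (x ^ (r - 1)) ^ i) := by
  simp [avg, LinearMap.sum_apply]

theorem avg_of_mem_cent {x : Module.End E S} {r : ℕ} (hx : x * x ^ (r - 1) = 1)
    {a : Module.End E S} (ha : a ∈ cent x) : avg x r a = (r : E) • a := by
  rw [avg_apply]
  have h1 : ∀ i, x ^ i * (a * (x ^ (r - 1)) ^ i) = a := by
    intro i
    have hc : Commute (x ^ i) a := Commute.pow_left ha i
    rw [← mul_assoc, hc.eq, mul_assoc,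
      ← (Commute.pow_right (Commute.refl x) (r - 1)).mul_pow, hx, one_pow, mul_one]
  rw [Finset.sum_congr rfl (fun i _ => h1 i), Finset.sum_const, Finset.card_range,
    Nat.cast_smul_eq_nsmul]

theorem avg_conj {x : Module.End E S} {r : ℕ} (hxr : x ^ r = 1)
    (a : Module.End E S) : avg x r (x * a * x ^ (r - 1)) = avg x r a := by
  rw [avg_apply, avg_apply]
  have h1 : ∀ i, x ^ i * (x * a * x ^ (r - 1) * (x ^ (r - 1)) ^ i)
      = x ^ (i + 1) * (a * (x ^ (r - 1)) ^ (i + 1)) := by
    intro i
    rw [pow_succ, pow_succ']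
    simp only [mul_assoc]
  rw [Finset.sum_congr rfl (fun i _ => h1 i)]
  have h2 := Finset.sum_range_succ (fun i => x ^ i * (a * (x ^ (r - 1)) ^ i)) r
  have h3 := Finset.sum_range_succ' (fun i => x ^ i * (a * (x ^ (r - 1)) ^ i)) r
  rw [h2] at h3
  have h4 : x ^ r * (a * (x ^ (r - 1)) ^ r) = x ^ 0 * (a * (x ^ (r - 1)) ^ 0) := by
    rw [hxr, ← pow_mul, mul_comm (r - 1) r, pow_mul, hxr]
    simp
  rw [h4] at h3
  exact (add_right_cancel h3).symm

end cent

variable {E : Type*} [Field E] [IsAlgClosed E] {S : Type*} [AddCommGroup S] [Module E S]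
  [FiniteDimensional E S] [Nontrivial S] {Q : Type*} [Group Q] [Fintype Q]
variable {ρ : Q →* Module.End E S} {x : Module.End E S} {σ : MulAut Q} {r : ℕ}

/-- the permutation induced by `σ` on `Q / Z(Q)` -/
noncomputable def tau (σ : MulAut Q) : Equiv.Perm (Q ⧸ Subgroup.center Q) :=
  (QuotientGroup.congr (Subgroup.center Q) (Subgroup.center Q) σ
    (Subgroup.characteristic_iff_map_eq.1 inferInstance σ)).toEquiv

theorem tau_mk (σ : MulAut Q) (g : Q) :
    tau σ (QuotientGroup.mk g) = QuotientGroup.mk (σ g) := rfl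

theorem tau_pow_mk (σ : MulAut Q) (k : ℕ) (g : Q) :
    (tau σ ^ k) (QuotientGroup.mk g) = QuotientGroup.mk ((σ ^ k) g) := by
  induction k with
  | zero => simp
  | succ k ih =>
    rw [pow_succ', Equiv.Perm.mul_apply, ih, tau_mk, pow_succ', MulAut.mul_apply]

namespace Data

theorem conj_x (D : Data ρ x σ r) (s : Q) : x * ρ s * x ^ (r - 1) = ρ (σ s) := by
  rw [D.tw, mul_assoc, D.x_mul_pow, mul_one]

theorem avg_sigma_pow (D : Data ρ x σ r) (k : ℕ) (s : Q) :
    avg x r (ρ ((σ ^ k) s)) = avg x r (ρ s) := by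
  induction k with
  | zero => simp
  | succ k ih =>
    rw [pow_succ', MulAut.mul_apply, ← D.conj_x, avg_conj D.xr, ih]

theorem finrank_cent_mul_le (D : Data ρ x σ r) (hr : r.Prime) (hσ : σ ^ r = 1)
    (hrE : (r : E) ≠ 0) (hZ : Subgroup.center Q ≠ ⊤) :
    ∃ o : ℕ, finrank E (cent x) ≤ o ∧ o * r = (Subgroup.center Q).index + (r - 1) := by
  classical
  have hτr : tau σ ^ r = 1 := by
    ext b
    obtain ⟨g, rfl⟩ := QuotientGroup.mk_surjective b
    rw [tau_pow_mk, hσ]; rfl
  have hcount := card_orbits (tau σ) r hr hτr (QuotientGroup.mk 1)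
    (by rw [tau_mk, map_one]) (by
      intro b hb
      obtain ⟨g, rfl⟩ := QuotientGroup.mk_surjective b
      rw [tau_mk] at hb
      have h1 : σ g * g⁻¹ ∈ Subgroup.center Q := by
        rw [← QuotientGroup.eq_one_iff, QuotientGroup.mk_mul, hb, ← QuotientGroup.mk_mul,
          mul_inv_cancel]; rfl
      have h2 := D.fpf g h1
      rw [QuotientGroup.mk_one]
      exact (QuotientGroup.eq_one_iff g).2 h2) (by
      by_contra hcon
      push Not at hcon
      apply hZ
      rw [eq_top_iff]
      intro g _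
      have := hcon (QuotientGroup.mk g)
      rw [QuotientGroup.mk_one] at this
      exact (QuotientGroup.eq_one_iff g).1 this)
  set Ω := Quotient (MulAction.orbitRel (Subgroup.zpowers (tau σ)) (Q ⧸ Subgroup.center Q))
    with hΩ
  let f : Ω → Module.End E S := fun ω => avg x r (ρ (ω.out).out)
  have hmem : ∀ g : Q, avg x r (ρ g) ∈ Submodule.span E (Set.range f) := by
    intro g
    let b : Q ⧸ Subgroup.center Q := QuotientGroup.mk g
    let ω : Ω := Quotient.mk _ b
    have h1 : (MulAction.orbitRel (Subgroup.zpowers (tau σ)) (Q ⧸ Subgroup.center Q)) ω.out b :=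
      Quotient.exact (Quotient.out_eq ω)
    rw [MulAction.orbitRel_apply, MulAction.mem_orbit_iff] at h1
    obtain ⟨⟨α, hα⟩, hαb⟩ := h1
    -- α • b = ω.out
    have hα' : α ∈ Submonoid.powers (tau σ) :=
      (isOfFinOrder_of_finite (tau σ)).mem_powers_iff_mem_zpowers.2 hα
    obtain ⟨k, rfl⟩ := Submonoid.mem_powers_iff _ _ |>.1 hα'
    have h2 : (tau σ ^ k) b = ω.out := hαb
    have h3 : (QuotientGroup.mk ((σ ^ k) g) : Q ⧸ Subgroup.center Q)
        = QuotientGroup.mk (ω.out).out := by
      rw [QuotientGroup.out_eq', ← h2, tau_pow_mk]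
    have h4 := QuotientGroup.eq.1 h3
    have h5 : (ω.out).out = (σ ^ k) g * (((σ ^ k) g)⁻¹ * (ω.out).out) := by group
    have h6 : f ω = D.lam (((σ ^ k) g)⁻¹ * (ω.out).out) • avg x r (ρ g) := by
      show avg x r (ρ (ω.out).out) = _
      rw [h5, D.rho_mul_center _ h4, map_smul, D.avg_sigma_pow]
      congr 2
      rw [← h5]
    have h7 : D.lam (((σ ^ k) g)⁻¹ * (ω.out).out) ≠ 0 := by
      intro h0
      have := D.rho_center h4
      rw [h0, zero_smul] at this
      exact rho_ne_zero _ this
    have h8 : avg x r (ρ g) = (D.lam (((σ ^ k) g)⁻¹ * (ω.out).out))⁻¹ • f ω := by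
      rw [h6, smul_smul, inv_mul_cancel₀ h7, one_smul]
    rw [h8]
    exact Submodule.smul_mem _ _ (Submodule.subset_span ⟨ω, rfl⟩)
  have hle : cent x ≤ Submodule.span E (Set.range f) := by
    intro a ha
    have h1 : avg x r a = (r : E) • a := avg_of_mem_cent D.x_mul_pow ha
    have h2 : a = (r : E)⁻¹ • avg x r a := by rw [h1, smul_smul, inv_mul_cancel₀ hrE, one_smul]
    rw [h2]
    apply Submodule.smul_mem
    have h3 : a ∈ Submodule.span E (Set.range ρ) := by rw [D.span_eq_top]; trivial
    have h4 : avg x r a ∈ (Submodule.span E (Set.range ρ)).map (avg x r) :=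
      Submodule.mem_map_of_mem h3
    rw [Submodule.map_span] at h4
    refine (Submodule.span_le.2 ?_) h4
    rintro _ ⟨_, ⟨g, rfl⟩, rfl⟩
    exact hmem g
  have h1 : finrank E (cent x) ≤ Fintype.card Ω :=
    (Submodule.finrank_mono hle).trans (finrank_range_le_card f)
  rw [Nat.card_eq_fintype_card] at hcount
  exact ⟨Fintype.card Ω, h1, by rw [hcount]; rfl⟩

end Data

end Cfsg.Agent.Lib.Helper46.ESRep
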