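import Cfsg.Agent.Lib.Helper46.ESRep4

/-!
# Lower bound for the dimension of the centralizer of an operator of finite order
-/

set_option autoImplicit false
set_option linter.unusedSectionVars false

namespace Cfsg.Agent.Lib.Helper46.ESRep

open Module

/-- Combinatorial Cauchy-Schwarz: a map `d` from a finite type with at most `m` values. -/
theorem card_sq_le {ι M : Type*} [Fintype ι] [DecidableEq ι] [DecidableEq M] (d : ι → M)
    (T : Finset M) (hT : ∀ k, d k ∈ T) :
    (Fintype.card ι) ^ 2 ≤ T.card * Fintype.card {p : ι × ι // d p.1 = d p.2} := by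
  have h1 : Fintype.card ι = ∑ μ ∈ T, (Finset.univ.filter (fun k => d k = μ)).card := by
    rw [← Finset.card_univ]
    exact Finset.card_eq_sum_card_fiberwise (fun k _ => hT k)
  have h2 : Fintype.card {p : ι × ι // d p.1 = d p.2}
      = ∑ μ ∈ T, (Finset.univ.filter (fun k => d k = μ)).card ^ 2 := by
    rw [Fintype.card_subtype]
    rw [Finset.card_eq_sum_card_fiberwise (f := fun p : ι × ι => d p.1) (t := T)
      (fun p _ => hT p.1)]
    refine Finset.sum_congr rfl (fun μ _ => ?_)
    rw [sq, ← Finset.card_product]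
    congr 1
    ext ⟨k, l⟩
    simp only [Finset.mem_filter, Finset.mem_univ, true_and, Finset.mem_product]
    constructor
    · rintro ⟨h, h'⟩
      exact ⟨h', h ▸ h'⟩
    · rintro ⟨h, h'⟩
      exact ⟨h.trans h'.symm, h⟩
  rw [h1, h2]
  exact sq_sum_le_card_mul_sum_sq

variable {E : Type*} [Field E] [IsAlgClosed E] {S : Type*} [AddCommGroup S] [Module E S]
  [FiniteDimensional E S]

theorem sq_finrank_le_aux {ι : Type*} [Fintype ι] (b : Basis ι E S) (d : ι → E)
    (x : Module.End E S) (hb : ∀ a, x (b a) = d a • b a) (r : ℕ) (hr : 0 < r) (hxr : x ^ r = 1)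
    (hfix : ∀ v, x v = v → v = 0) :
    (finrank E S) ^ 2 ≤ (r - 1) * finrank E (cent x) := by
  classical
  have hd1 : ∀ a, d a ≠ 1 := by
    intro a h
    have h1 : x (b a) = b a := by rw [hb a, h, one_smul]
    exact b.ne_zero a (hfix _ h1)
  have hdr : ∀ a, d a ^ r = 1 := by
    intro a
    have h1 : ∀ n : ℕ, (x ^ n) (b a) = d a ^ n • b a := by
      intro n
      induction n with
      | zero => simp
      | succ n ih =>
        rw [pow_succ', Module.End.mul_apply, ih, map_smul, hb a, smul_smul, pow_succ]
    have h2 := h1 r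
    rw [hxr, Module.End.one_apply] at h2
    have h3 : (d a ^ r - 1) • b a = 0 := by rw [sub_smul, one_smul, ← h2, sub_self]
    rcases smul_eq_zero.1 h3 with h | h
    · exact sub_eq_zero.1 h
    · exact absurd h (b.ne_zero a)
  let T : Finset E := (Polynomial.nthRootsFinset r (1 : E)).erase 1
  have hT : ∀ a, d a ∈ T := by
    intro a
    exact Finset.mem_erase.2 ⟨hd1 a, (Polynomial.mem_nthRootsFinset hr 1).2 (hdr a)⟩
  have hTcard : T.card ≤ r - 1 := by
    have h1 : (1 : E) ∈ Polynomial.nthRootsFinset r (1 : E) :=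
      (Polynomial.mem_nthRootsFinset hr 1).2 (one_pow r)
    rw [Finset.card_erase_of_mem h1]
    apply Nat.sub_le_sub_right
    unfold Polynomial.nthRootsFinset
    exact (Multiset.toFinset_card_le _).trans (Polynomial.card_nthRoots r 1)
  have hcomb := card_sq_le d T hT
  have hN : finrank E S = Fintype.card ι := finrank_eq_card_basis b
  -- the injective map into the centralizer
  let e := Matrix.toLinAlgEquiv b
  have hx : x = e (Matrix.diagonal d) := by
    apply b.ext
    intro a
    rw [hb a, Matrix.toLinAlgEquiv_self]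
    simp [Matrix.diagonal_apply]
  let P := {p : ι × ι // d p.1 = d p.2}
  let Mf : (P → E) →ₗ[E] Matrix ι ι E :=
    { toFun := fun f => Matrix.of (fun k l => if h : d k = d l then f ⟨(k, l), h⟩ else 0)
      map_add' := by
        intro f g
        ext k l
        simp only [Matrix.of_apply, Matrix.add_apply, Pi.add_apply]
        split_ifs <;> simp
      map_smul' := by
        intro c f
        ext k l
        simp only [Matrix.of_apply, Matrix.smul_apply, Pi.smul_apply, RingHom.id_apply]
        split_ifs <;> simp }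
  have hMf : ∀ f, e (Mf f) ∈ cent x := by
    intro f
    rw [mem_cent, hx, ← map_mul, ← map_mul]
    congr 1
    ext k l
    rw [Matrix.diagonal_mul, Matrix.mul_diagonal]
    show d k * (if h : d k = d l then f ⟨(k, l), h⟩ else 0)
      = (if h : d k = d l then f ⟨(k, l), h⟩ else 0) * d l
    split_ifs with h
    · rw [h, mul_comm]
    · simp
  let Φ : (P → E) →ₗ[E] cent x := (e.toLinearMap ∘ₗ Mf).codRestrict (cent x) hMf
  have hΦ : Function.Injective Φ := by
    intro f g hfg
    have h1 : e (Mf f) = e (Mf g) := congrArg Subtype.val hfg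
    have h2 : Mf f = Mf g := e.injective h1
    funext ⟨⟨k, l⟩, h⟩
    have h3 := congrFun (congrFun h2 k) l
    have h4 : ∀ f' : P → E, Mf f' k l = f' ⟨(k, l), h⟩ := by
      intro f'
      show (if h : d k = d l then f' ⟨(k, l), h⟩ else 0) = _
      rw [dif_pos h]
    rw [h4, h4] at h3
    exact h3
  have h5 := LinearMap.finrank_le_finrank_of_injective hΦ
  rw [Module.finrank_fintype_fun_eq_card] at h5
  rw [hN]
  calc Fintype.card ι ^ 2 ≤ T.card * Fintype.card P := hcomb
    _ ≤ (r - 1) * finrank E (cent x) := Nat.mul_le_mul hTcard h5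

theorem sq_finrank_le (x : Module.End E S) (r : ℕ) (hr : 0 < r) (hxr : x ^ r = 1)
    (hrE : (r : E) ≠ 0) (hfix : ∀ v, x v = v → v = 0) :
    (finrank E S) ^ 2 ≤ (r - 1) * finrank E (cent x) := by
  classical
  have hss : x.IsSemisimple := by
    apply Module.End.isSemisimple_of_squarefree_aeval_eq_zero
      (p := Polynomial.X ^ r - Polynomial.C (1 : E))
    · exact (Polynomial.separable_X_pow_sub_C (1 : E) hrE one_ne_zero).squarefree
    · simp [hxr]
  let dec := DirectSum.isInternal_submodule_of_iSupIndep_of_iSup_eq_top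
    x.eigenspaces_iSupIndep hss.iSup_eigenspace_eq_top
  let b := dec.collectedBasis (fun μ => Module.finBasis E (x.eigenspace μ))
  have hb : ∀ a, x (b a) = a.1 • b a := fun a =>
    Module.End.mem_eigenspace_iff.1 (dec.collectedBasis_mem _ a)
  have : Fintype (Σ μ : E, Fin (finrank E (x.eigenspace μ))) :=
    FiniteDimensional.fintypeBasisIndex b
  exact sq_finrank_le_aux b (fun a => a.1) x hb r hr hxr hfix

end Cfsg.Agent.Lib.Helper46.ESRep
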