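import Cfsg.Agent.Lib.Helper46.ESRep5

/-!
# Representations of class-2 groups of central type (part 6): the index formula
-/

set_option autoImplicit false
set_option linter.unusedSectionVars false

namespace Cfsg.Agent.Lib.Helper46.ESRep

open Module
open scoped commutatorElement

theorem arith {N c o r I : ℕ} (hr : r.Prime) (hI : N * N = I) (hI1 : I ≠ 1) (hI0 : I ≠ 0)
    (h1 : N ^ 2 ≤ (r - 1) * c) (h2 : c ≤ o) (h3 : o * r = I + (r - 1)) : I = (r - 1) ^ 2 := by
  have hr2 := hr.two_le
  obtain ⟨s, rfl⟩ : ∃ s, r = s + 1 := ⟨r - 1, by omega⟩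
  simp only [Nat.add_sub_cancel] at *
  subst hI
  have hN2 : 2 ≤ N := by
    rcases N with _ | _ | N
    · simp at hI0
    · simp at hI1
    · omega
  -- N ≤ s
  have h4 : N ^ 2 ≤ s * o := h1.trans (Nat.mul_le_mul_left _ h2)
  have h5 : (s + 1) * N ^ 2 ≤ s * (N * N + s) := by
    calc (s + 1) * N ^ 2 ≤ (s + 1) * (s * o) := Nat.mul_le_mul_left _ h4
      _ = s * (o * (s + 1)) := by ring
      _ = s * (N * N + s) := by rw [h3]
  have h6 : N ^ 2 ≤ s ^ 2 := by nlinarith
  have h7 : N ≤ s := by
    by_contra hcon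
    push Not at hcon
    have : s ^ 2 < N ^ 2 := Nat.pow_lt_pow_left hcon (by norm_num)
    omega
  -- divisibility
  have h8 : (s + 1) ∣ (N - 1) * (N + 1) := by
    have h9 : (N - 1) * (N + 1) + (s + 1) = o * (s + 1) := by
      obtain ⟨M, rfl⟩ : ∃ M, N = M + 1 := ⟨N - 1, by omega⟩
      simp only [Nat.add_sub_cancel]
      rw [h3]; ring
    have h10 : (s + 1) ∣ (N - 1) * (N + 1) + (s + 1) := ⟨o, by rw [h9]; ring⟩
    exact (Nat.dvd_add_left (dvd_refl _)).1 h10
  rcases (Nat.Prime.dvd_mul hr).1 h8 with h | h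
  · have := Nat.le_of_dvd (by omega) h
    omega
  · have := Nat.le_of_dvd (by omega) h
    have hNs : N = s := by omega
    rw [hNs]; ring

variable {E : Type*} [Field E] [IsAlgClosed E]

section core
variable {S : Type*} [AddCommGroup S] [Module E S]
  [FiniteDimensional E S] [Nontrivial S] {Q : Type*} [Group Q] [Finite Q]
variable {ρ : Q →* Module.End E S} {x : Module.End E S} {σ : MulAut Q} {r : ℕ}

theorem Data.index_eq (D : Data ρ x σ r) (hr : r.Prime) (hσ : σ ^ r = 1)
    (hrE : (r : E) ≠ 0) (hZ : Subgroup.center Q ≠ ⊤) (hfix : ∀ v, x v = v → v = 0) :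
    (Subgroup.center Q).index = (r - 1) ^ 2 := by
  have := Fintype.ofFinite Q
  obtain ⟨o, h2, h3⟩ := D.finrank_cent_mul_le hr hσ hrE hZ
  have h1 := sq_finrank_le x r hr.pos D.xr hrE hfix
  exact arith hr D.finrank_sq (fun h => hZ (Subgroup.index_eq_one.1 h))
    (Subgroup.index_ne_zero_of_finite) h1 h2 h3

end core

section general
variable {U : Type*} [AddCommGroup U] [Module E U] [FiniteDimensional E U]
  {Q : Type*} [Group Q] [Finite Q]

/-- The general version: no irreducibility; the centre has prime order and acts nontrivially. -/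
theorem index_eq_of_rep (ρ : Q →* Module.End E U) (x : Module.End E U) (σ : MulAut Q)
    {r q : ℕ} (hr : r.Prime) (hq : q.Prime) (hxr : x ^ r = 1)
    (tw : ∀ g, x * ρ g = ρ (σ g) * x)
    (cl2 : ∀ g h : Q, ⁅g, h⁆ ∈ Subgroup.center Q)
    (fixZ : ∀ z ∈ Subgroup.center Q, σ z = z)
    (fpf : ∀ g, σ g * g⁻¹ ∈ Subgroup.center Q → g ∈ Subgroup.center Q)
    (cardQ : (Nat.card Q : E) ≠ 0) (hσ : σ ^ r = 1) (hrE : (r : E) ≠ 0)
    (hZ : Subgroup.center Q ≠ ⊤) (hZq : Nat.card (Subgroup.center Q) = q)
    (hρZ : ∃ z ∈ Subgroup.center Q, ρ z ≠ 1)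
    (hfix : ∀ v, x v = v → v = 0) :
    (Subgroup.center Q).index = (r - 1) ^ 2 := by
  classical
  have := Fintype.ofFinite Q
  have hqF : Fact q.Prime := ⟨hq⟩
  have hqE : (q : E) ≠ 0 := by
    intro h
    apply cardQ
    obtain ⟨k, hk⟩ := Subgroup.card_subgroup_dvd_card (Subgroup.center Q)
    rw [hk, hZq, Nat.cast_mul, h, zero_mul]
  -- the trace of the centre
  let Tr : Module.End E U := ∑ z : Subgroup.center Q, ρ (z : Q)
  have hTrρ : ∀ g, Tr * ρ g = ρ g * Tr := by
    intro g
    show (∑ z : Subgroup.center Q, ρ (z : Q)) * ρ g = ρ g * ∑ z : Subgroup.center Q, ρ (z : Q)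
    rw [Finset.mul_sum, Finset.sum_mul]
    refine Finset.sum_congr rfl (fun z _ => ?_)
    rw [← map_mul, ← map_mul, Subgroup.mem_center_iff.1 z.2 g]
  have hTrx : Tr * x = x * Tr := by
    show (∑ z : Subgroup.center Q, ρ (z : Q)) * x = x * ∑ z : Subgroup.center Q, ρ (z : Q)
    rw [Finset.mul_sum, Finset.sum_mul]
    refine Finset.sum_congr rfl (fun z _ => ?_)
    rw [tw, fixZ _ z.2]
  let U' : Submodule E U := LinearMap.ker Tr
  have hU'ρ : ∀ g, ∀ v ∈ U', ρ g v ∈ U' := by
    intro g v hv
    rw [LinearMap.mem_ker] at hv ⊢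
    have := congrArg (fun f : Module.End E U => f v) (hTrρ g)
    simp only [Module.End.mul_apply] at this
    rw [this, hv, map_zero]
  have hU'x : ∀ v ∈ U', x v ∈ U' := by
    intro v hv
    rw [LinearMap.mem_ker] at hv ⊢
    have := congrArg (fun f : Module.End E U => f v) hTrx
    simp only [Module.End.mul_apply] at this
    rw [this, hv, map_zero]
  have hU'ne : U' ≠ ⊥ := by
    obtain ⟨z₁, hz₁, hne⟩ := hρZ
    have : ∃ u, ρ z₁ u ≠ u := by
      by_contra hcon
      push Not at hcon
      exact hne (LinearMap.ext hcon)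
    obtain ⟨u, hu⟩ := this
    intro hbot
    have hmem : ρ z₁ u - u ∈ U' := by
      rw [LinearMap.mem_ker, map_sub, sub_eq_zero]
      show (∑ z : Subgroup.center Q, ρ (z : Q)) (ρ z₁ u) = (∑ z : Subgroup.center Q, ρ (z : Q)) u
      rw [LinearMap.sum_apply, LinearMap.sum_apply]
      refine Fintype.sum_equiv (Equiv.mulRight (⟨z₁, hz₁⟩ : Subgroup.center Q)) _ _ (fun z => ?_)
      simp only [Equiv.coe_mulRight, Subgroup.coe_mul, map_mul, Module.End.mul_apply]
    rw [hbot, Submodule.mem_bot, sub_eq_zero] at hmem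
    exact hu hmem
  have hfree : ∀ z ∈ Subgroup.center Q, z ≠ 1 → ∀ v ∈ U', ρ z v = v → v = 0 := by
    intro z hz hz1 v hv hzv
    have htop : Subgroup.zpowers (⟨z, hz⟩ : Subgroup.center Q) = ⊤ :=
      zpowers_eq_top_of_prime_card hZq (fun h => hz1 (congrArg Subtype.val h))
    have hall : ∀ w : Subgroup.center Q, ρ (w : Q) v = v := by
      intro w
      have hw : w ∈ Subgroup.zpowers (⟨z, hz⟩ : Subgroup.center Q) := by rw [htop]; trivial
      have hw' : w ∈ Submonoid.powers (⟨z, hz⟩ : Subgroup.center Q) :=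
        (isOfFinOrder_of_finite _).mem_powers_iff_mem_zpowers.2 hw
      obtain ⟨k, rfl⟩ := (Submonoid.mem_powers_iff _ _).1 hw'
      induction k with
      | zero => simp
      | succ k ih =>
        have h1 : (((⟨z, hz⟩ : Subgroup.center Q) ^ (k + 1) : Subgroup.center Q) : Q)
            = (((⟨z, hz⟩ : Subgroup.center Q) ^ k : Subgroup.center Q) : Q) * z := by
          rw [pow_succ]; rfl
        rw [h1, map_mul, Module.End.mul_apply, hzv]
        apply ih
        · exact Subgroup.pow_mem _ (Subgroup.mem_zpowers _) k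
        · exact ⟨k, rfl⟩
    rw [LinearMap.mem_ker] at hv
    have h2 : Tr v = (q : E) • v := by
      show (∑ z : Subgroup.center Q, ρ (z : Q)) v = _
      rw [LinearMap.sum_apply, Finset.sum_congr rfl (fun w _ => hall w), Finset.sum_const,
        Finset.card_univ, ← Nat.card_eq_fintype_card, hZq, Nat.cast_smul_eq_nsmul]
    rw [hv] at h2
    rcases smul_eq_zero.1 h2.symm with h | h
    · exact absurd h hqE
    · exact h
  -- a minimal invariant subspace of U'
  let 𝒲 : Set (Submodule E U) :=
    {W | W ≠ ⊥ ∧ W ≤ U' ∧ (∀ g, ∀ v ∈ W, ρ g v ∈ W) ∧ (∀ v ∈ W, x v ∈ W)}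
  obtain ⟨W, ⟨hW0, hWU, hWρ, hWx⟩, hmin⟩ :=
    (wellFounded_lt : WellFounded ((· < ·) : Submodule E U → Submodule E U → Prop)).has_min 𝒲
      ⟨U', hU'ne, le_refl _, hU'ρ, hU'x⟩
  let ρW : Q →* Module.End E W :=
    { toFun := fun g => (ρ g).restrict (hWρ g)
      map_one' := by
        ext v; simp
      map_mul' := by
        intro g h
        ext v; simp }
  let xW : Module.End E W := x.restrict hWx
  have hnt : Nontrivial W := Submodule.nontrivial_iff_ne_bot.2 hW0
  have D : Data ρW xW σ r :=
    { xr := by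
        ext v
        have h1 : (xW ^ r) v = ⟨(x ^ r) v, by rw [hxr]; exact v.2⟩ := by
          have := Module.End.pow_restrict (f' := x) r hWx
          show ((x.restrict hWx) ^ r) v = _
          rw [this]; rfl
        rw [h1]; simp [hxr]
      rpos := hr.pos
      tw := by
        intro g
        ext v
        have := congrArg (fun f : Module.End E U => f v) (tw g)
        simp only [Module.End.mul_apply] at this
        exact this
      irr := by
        intro W' h1 h2
        by_cases hW' : W' = ⊥
        · exact Or.inl hW'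
        · right
          have hmem : W'.map W.subtype ∈ 𝒲 := by
            refine ⟨?_, ?_, ?_, ?_⟩
            · intro h
              apply hW'
              exact Submodule.map_injective_of_injective W.injective_subtype
                (h.trans (Submodule.map_bot _).symm)
            · exact (Submodule.map_subtype_le W W').trans hWU
            · rintro g _ ⟨v, hv, rfl⟩
              exact ⟨ρW g v, h1 g v hv, rfl⟩
            · rintro _ ⟨v, hv, rfl⟩
              exact ⟨xW v, h2 v hv, rfl⟩
          have h3 := hmin _ hmem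
          have h4 : W'.map W.subtype = W := by
            by_contra hne
            exact h3 (lt_of_le_of_ne (Submodule.map_subtype_le W W') hne)
          rw [eq_top_iff]
          intro v _
          have h5 : (v : U) ∈ W'.map W.subtype := by rw [h4]; exact v.2
          obtain ⟨w, hw, hwv⟩ := h5
          have : w = v := Subtype.ext hwv
          rwa [← this]
      cl2 := cl2
      faith := by
        intro z hz h1
        by_contra hz1
        obtain ⟨w, hw⟩ := exists_ne (0 : W)
        apply hw
        have h2 : ρ z (w : U) = w := by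
          have := congrArg (fun f : Module.End E W => ((f w : W) : U)) h1
          exact this
        exact Subtype.ext (hfree z hz hz1 w (hWU w.2) h2)
      fixZ := fixZ
      fpf := fpf
      cardQ := cardQ }
  apply D.index_eq hr hσ hrE hZ
  intro v hv
  have h1 : x (v : U) = v := congrArg Subtype.val hv
  exact Subtype.ext (hfix _ h1)

end general

end Cfsg.Agent.Lib.Helper46.ESRep
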