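import Mathlib
import Cfsg.Prelude.Def_LocalEven
import Cfsg.Agent.Lib.Helper46.SL2Nat

/-! Coordinates for a faithful natural SL₂(F)-module with a chosen Sylow subgroup. -/

set_option autoImplicit false

namespace Cfsg.Agent.Lib.Helper46.NatMod

open Matrix Cfsg.Agent.Lib.Helper46.SL2Nat

/-- Coordinates: `V ≅ F²`, `L ≅ SL₂(F)`, `T ↔ U`. -/
structure Coord (F : Type*) [Field F] {G : Type*} [Group G] (V L T : Subgroup G) where
  c : G → Fin 2 → F
  r : G → SpecialLinearGroup (Fin 2) F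
  c_mul : ∀ x ∈ V, ∀ y ∈ V, c (x * y) = c x + c y
  c_inj : ∀ x ∈ V, ∀ y ∈ V, c x = c y → x = y
  c_surj : ∀ w, ∃ x ∈ V, c x = w
  r_mul : ∀ l ∈ L, ∀ m ∈ L, r (l * m) = r l * r m
  r_inj : ∀ l ∈ L, ∀ m ∈ L, r l = r m → l = m
  r_surj : ∀ A, ∃ l ∈ L, r l = A
  act_mem : ∀ l ∈ L, ∀ x ∈ V, l * x * l⁻¹ ∈ V
  act : ∀ l ∈ L, ∀ x ∈ V, c (l * x * l⁻¹) = (r l : Matrix (Fin 2) (Fin 2) F) *ᵥ c x
  T_le : T ≤ L
  mem_T : ∀ l ∈ L, l ∈ T ↔ r l ∈ U F

theorem exists_coord {G : Type*} [Group G] [Finite G] {p : ℕ} [Fact p.Prime] {F : Type*} [Field F]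
    [Fintype F] (n : ℕ) (hF : Fintype.card F = p ^ n) (V L : Subgroup G)
    (hnat : Cfsg.IsNaturalSL2Module F V L) (hf : L ⊓ Subgroup.centralizer (V : Set G) = ⊥)
    (S : Sylow p ↥L) (T : Subgroup G) (hT : T = ((S : Subgroup ↥L).map L.subtype)) :
    Nonempty (Coord F V L T) := by
  classical
  have hchar : CharP F p := charP_of_card_eq_prime_pow hF
  obtain ⟨hLN, ρ, ψ, hsurj, hker, hact⟩ := hnat
  have hinj : Function.Injective ρ := by
    rw [← MonoidHom.ker_eq_bot_iff, hker, eq_bot_iff]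
    intro l hl
    rw [Subgroup.mem_subgroupOf] at hl
    have : (l : G) ∈ L ⊓ Subgroup.centralizer (V : Set G) := ⟨l.2, hl⟩
    rw [hf, Subgroup.mem_bot] at this
    rw [Subgroup.mem_bot]
    exact Subtype.ext this
  obtain ⟨g, hg⟩ := sylow_eq_conj_U p (S.mapSurjective hsurj)
  have hgS : ∀ l : L, l ∈ S ↔ g⁻¹ * ρ l * g ∈ U F := by
    intro l
    rw [← hg]
    constructor
    · intro h
      exact ⟨l, h, rfl⟩
    · rintro ⟨m, hm, hml⟩
      rw [← hinj hml]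
      exact hm
  have hactm : ∀ l ∈ L, ∀ x ∈ V, l * x * l⁻¹ ∈ V := by
    intro l hl x hx
    obtain ⟨w, hw, -⟩ := hact ⟨l, hl⟩ ⟨x, hx⟩
    rw [← hw]; exact w.2
  refine ⟨{
    c := fun x => if h : x ∈ V then ((g⁻¹ : SpecialLinearGroup (Fin 2) F) : Matrix (Fin 2) (Fin 2) F) *ᵥ ψ (Additive.ofMul ⟨x, h⟩) else 0
    r := fun l => if h : l ∈ L then g⁻¹ * ρ ⟨l, h⟩ * g else 1
    c_mul := ?_
    c_inj := ?_
    c_surj := ?_
    r_mul := ?_
    r_inj := ?_
    r_surj := ?_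
    act_mem := hactm
    act := ?_
    T_le := ?_
    mem_T := ?_ }⟩
  · intro x hx y hy
    simp only [dif_pos hx, dif_pos hy, dif_pos (V.mul_mem hx hy)]
    rw [← Matrix.mulVec_add, ← map_add]
    rfl
  · intro x hx y hy h
    simp only [dif_pos hx, dif_pos hy] at h
    have h2 := congrArg (fun w => (g : Matrix (Fin 2) (Fin 2) F) *ᵥ w) h
    simp only [mulVec_inv_mulVec] at h2
    have h3 := ψ.injective h2
    have h4 := Additive.ofMul.injective h3
    exact congrArg Subtype.val h4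
  · intro w
    obtain ⟨a, ha⟩ := ψ.surjective ((g : Matrix (Fin 2) (Fin 2) F) *ᵥ w)
    refine ⟨(Additive.toMul a : V), (Additive.toMul a : V).2, ?_⟩
    simp only [dif_pos (Additive.toMul a : V).2]
    have : (Additive.ofMul (⟨((Additive.toMul a : V) : G), (Additive.toMul a : V).2⟩ : V)) = a := rfl
    rw [this, ha, inv_mulVec_mulVec]
  · intro l hl m hm
    simp only [dif_pos hl, dif_pos hm, dif_pos (L.mul_mem hl hm)]
    have : (⟨l * m, L.mul_mem hl hm⟩ : L) = ⟨l, hl⟩ * ⟨m, hm⟩ := rfl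
    rw [this, map_mul]
    group
  · intro l hl m hm h
    simp only [dif_pos hl, dif_pos hm] at h
    have h2 : ρ ⟨l, hl⟩ = ρ ⟨m, hm⟩ := by
      have := mul_right_cancel h
      exact mul_left_cancel this
    exact congrArg Subtype.val (hinj h2)
  · intro A
    obtain ⟨l, hl⟩ := hsurj (g * A * g⁻¹)
    refine ⟨l, l.2, ?_⟩
    simp only [dif_pos l.2]
    have : (⟨(l : G), l.2⟩ : L) = l := rfl
    rw [this, hl]
    group
  · intro l hl x hx
    simp only [dif_pos hl, dif_pos hx, dif_pos (hactm l hl x hx)]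
    obtain ⟨w, hw, hw2⟩ := hact ⟨l, hl⟩ ⟨x, hx⟩
    have : (⟨l * x * l⁻¹, hactm l hl x hx⟩ : V) = w := Subtype.ext hw.symm
    rw [this, hw2]
    rw [mulVec_mul, mulVec_mul, mulVec_inv_mulVec]
  · rw [hT]
    exact Subgroup.map_subtype_le _
  · intro l hl
    simp only [dif_pos hl]
    rw [← hgS, hT]
    constructor
    · rintro ⟨m, hm, hml⟩
      have : m = ⟨l, hl⟩ := Subtype.ext hml
      rw [← this]; exact hm
    · intro h
      exact ⟨⟨l, hl⟩, h, rfl⟩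

namespace Coord

variable {F : Type*} [Field F] {G : Type*} [Group G] {V L T : Subgroup G} (C : Coord F V L T)
include C

lemma c_one : C.c 1 = 0 := by
  have := C.c_mul 1 V.one_mem 1 V.one_mem
  rw [mul_one] at this
  simpa using this

lemma c_inv {x : G} (hx : x ∈ V) : C.c x⁻¹ = - C.c x := by
  have := C.c_mul x hx x⁻¹ (V.inv_mem hx)
  rw [mul_inv_cancel, C.c_one] at this
  exact (neg_eq_of_add_eq_zero_right this.symm).symm

lemma c_eq_zero {x : G} (hx : x ∈ V) : C.c x = 0 ↔ x = 1 := by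
  constructor
  · intro h
    exact C.c_inj x hx 1 V.one_mem (by rw [h, C.c_one])
  · rintro rfl; exact C.c_one

lemma comm {x y : G} (hx : x ∈ V) (hy : y ∈ V) : x * y = y * x :=
  C.c_inj _ (V.mul_mem hx hy) _ (V.mul_mem hy hx) (by rw [C.c_mul x hx y hy, C.c_mul y hy x hx, add_comm])

lemma r_one : C.r 1 = 1 := by
  have := C.r_mul 1 L.one_mem 1 L.one_mem
  rw [mul_one] at this
  simpa using this

lemma r_inv {l : G} (hl : l ∈ L) : C.r l⁻¹ = (C.r l)⁻¹ := by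
  have := C.r_mul l hl l⁻¹ (L.inv_mem hl)
  rw [mul_inv_cancel, C.r_one] at this
  exact (inv_eq_of_mul_eq_one_right this.symm).symm

lemma r_eq_one {l : G} (hl : l ∈ L) : C.r l = 1 ↔ l = 1 := by
  constructor
  · intro h
    exact C.r_inj l hl 1 L.one_mem (by rw [h, C.r_one])
  · rintro rfl; exact C.r_one

lemma r_pow {l : G} (hl : l ∈ L) (k : ℕ) : C.r (l ^ k) = (C.r l) ^ k := by
  induction k with
  | zero => simp [C.r_one]
  | succ k ih => rw [pow_succ, pow_succ, C.r_mul _ (L.pow_mem hl k) _ hl, ih]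

/-- `l` commutes with `x` iff the matrix fixes the vector. -/
lemma commute_iff {l x : G} (hl : l ∈ L) (hx : x ∈ V) :
    l * x = x * l ↔ (C.r l : Matrix (Fin 2) (Fin 2) F) *ᵥ C.c x = C.c x := by
  rw [← C.act l hl x hx]
  constructor
  · intro h
    rw [h]; simp
  · intro h
    have := C.c_inj _ (C.act_mem l hl x hx) _ hx h
    exact mul_inv_eq_iff_eq_mul.1 this

/-- commutator `x l x⁻¹ l⁻¹` in coordinates -/
lemma c_comm {l x : G} (hl : l ∈ L) (hx : x ∈ V) :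
    x * l * x⁻¹ * l⁻¹ ∈ V ∧
    C.c (x * l * x⁻¹ * l⁻¹) = C.c x - (C.r l : Matrix (Fin 2) (Fin 2) F) *ᵥ C.c x := by
  have h1 : x * l * x⁻¹ * l⁻¹ = x * (l * x⁻¹ * l⁻¹) := by group
  have h2 := C.act_mem l hl x⁻¹ (V.inv_mem hx)
  refine ⟨by rw [h1]; exact V.mul_mem hx h2, ?_⟩
  rw [h1, C.c_mul x hx _ h2, C.act l hl _ (V.inv_mem hx), C.c_inv hx, Matrix.mulVec_neg, sub_eq_add_neg]

/-- elements of `T` -/
lemma exists_T (b : F) : ∃ t ∈ T, C.r t = u b := by
  obtain ⟨l, hl, hlb⟩ := C.r_surj (u b)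
  exact ⟨l, (C.mem_T l hl).2 (hlb ▸ u_mem b), hlb⟩

lemma r_T {t : G} (ht : t ∈ T) : C.r t = u (C.r t 0 1) :=
  eq_u_of_mem ((C.mem_T t (C.T_le ht)).1 ht)

/-- `C_V(T)` in coordinates. -/
lemma mem_cent_T {x : G} : x ∈ V ⊓ Subgroup.centralizer (T : Set G) ↔ x ∈ V ∧ C.c x 1 = 0 := by
  constructor
  · rintro ⟨hx, hc⟩
    refine ⟨hx, ?_⟩
    obtain ⟨t, ht, htb⟩ := C.exists_T 1
    have h1 := (C.commute_iff (C.T_le ht) hx).1 (Subgroup.mem_centralizer_iff.1 hc t ht)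
    have h2 := congrFun h1 0
    rw [mulVec_0, htb] at h2
    simpa using h2
  · rintro ⟨hx, h1⟩
    refine Subgroup.mem_inf.2 ⟨hx, ?_⟩
    rw [Subgroup.mem_centralizer_iff]
    intro t ht
    rw [C.commute_iff (C.T_le ht) hx, C.r_T ht]
    apply vec_ext
    · rw [mulVec_0, h1]; simp
    · rw [mulVec_1]; simp

/-- `C_V(s)` for `1 ≠ s ∈ T`. -/
lemma mem_cent_s {s : G} (hs : s ∈ T) (hs1 : s ≠ 1) {x : G} :
    x ∈ V ⊓ Subgroup.centralizer ({s} : Set G) ↔ x ∈ V ∧ C.c x 1 = 0 := by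
  have hb : C.r s 0 1 ≠ 0 := by
    intro h
    apply hs1
    rw [← C.r_eq_one (C.T_le hs), C.r_T hs, h, u_zero]
  constructor
  · rintro ⟨hx, hc⟩
    refine ⟨hx, ?_⟩
    have h1 := (C.commute_iff (C.T_le hs) hx).1 (Subgroup.mem_centralizer_iff.1 hc s rfl)
    have h2 := congrFun h1 0
    rw [mulVec_0, C.r_T hs] at h2
    simp only [u_00, u_01, one_mul, add_eq_left, mul_eq_zero] at h2
    exact h2.resolve_left hb
  · rintro ⟨hx, h1⟩
    refine Subgroup.mem_inf.2 ⟨hx, ?_⟩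
    rw [Subgroup.mem_centralizer_iff]
    intro t ht
    rw [Set.mem_singleton_iff] at ht
    subst ht
    rw [C.commute_iff (C.T_le hs) hx, C.r_T hs]
    apply vec_ext
    · rw [mulVec_0, h1]; simp
    · rw [mulVec_1]; simp

end Coord

end Cfsg.Agent.Lib.Helper46.NatMod
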