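import Mathlib
import Cfsg.Agent.Lib.Helper46.NatMod

/-! Computations in a natural SL₂(F)-module in coordinates. -/

set_option autoImplicit false

namespace Cfsg.Agent.Lib.Helper46.NatMod

open Matrix Cfsg.Agent.Lib.Helper46.SL2Nat

namespace Coord

variable {F : Type*} [Field F] {G : Type*} [Group G] {V L T : Subgroup G} (C : Coord F V L T)
include C

lemma c_comm_T {t x : G} (ht : t ∈ T) (hx : x ∈ V) :
    C.c (x * t * x⁻¹ * t⁻¹) = ![- (C.r t 0 1) * C.c x 1, 0] := by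
  rw [(C.c_comm (C.T_le ht) hx).2]
  apply vec_ext
  · rw [Pi.sub_apply, mulVec_0, C.r_T ht]
    simp
  · rw [Pi.sub_apply, mulVec_1, C.r_T ht]
    simp

lemma comm_VT_le : ⁅V, T⁆ ≤ V ⊓ Subgroup.centralizer (T : Set G) := by
  rw [Subgroup.commutator_le]
  intro v hv t ht
  rw [commutatorElement_def, C.mem_cent_T]
  refine ⟨(C.c_comm (C.T_le ht) hv).1, ?_⟩
  rw [C.c_comm_T ht hv]
  simp

lemma le_closure {v : G} (hv : v ∈ V) (hv1 : C.c v 1 ≠ 0) :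
    ∀ x ∈ V ⊓ Subgroup.centralizer (T : Set G), ∃ t ∈ T, x = v * t * v⁻¹ * t⁻¹ := by
  intro x hx
  rw [C.mem_cent_T] at hx
  obtain ⟨hxV, hx1⟩ := hx
  obtain ⟨t, ht, htb⟩ := C.exists_T (- C.c x 0 / C.c v 1)
  refine ⟨t, ht, ?_⟩
  apply C.c_inj _ hxV _ (C.c_comm (C.T_le ht) hv).1
  rw [C.c_comm_T ht hv, htb]
  apply vec_ext
  · simp only [u_01, Matrix.cons_val_zero]
    field_simp
  · simp [hx1]

lemma le_comm_s {s : G} (hs : s ∈ T) (hs1 : s ≠ 1) :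
    ∀ x ∈ V ⊓ Subgroup.centralizer (T : Set G), ∃ v ∈ V, x = v * s * v⁻¹ * s⁻¹ := by
  intro x hx
  rw [C.mem_cent_T] at hx
  obtain ⟨hxV, hx1⟩ := hx
  have hb : C.r s 0 1 ≠ 0 := by
    intro h
    apply hs1
    rw [← C.r_eq_one (C.T_le hs), C.r_T hs, h, u_zero]
  obtain ⟨v, hv, hvc⟩ := C.c_surj ![0, - C.c x 0 / C.r s 0 1]
  refine ⟨v, hv, ?_⟩
  apply C.c_inj _ hxV _ (C.c_comm (C.T_le hs) hv).1
  rw [C.c_comm_T hs hv, hvc]
  apply vec_ext
  · simp only [Matrix.cons_val_zero, Matrix.cons_val_one]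
    field_simp
  · simp [hx1]

lemma card_V : Nat.card V = Nat.card (Fin 2 → F) := by
  apply Nat.card_congr
  refine Equiv.ofBijective (fun x : V => C.c x) ⟨?_, ?_⟩
  · intro x y h
    exact Subtype.ext (C.c_inj _ x.2 _ y.2 h)
  · intro w
    obtain ⟨x, hx, hxw⟩ := C.c_surj w
    exact ⟨⟨x, hx⟩, hxw⟩

lemma card_cent : Nat.card ↥(V ⊓ Subgroup.centralizer (T : Set G)) = Nat.card F := by
  apply Nat.card_congr
  refine Equiv.ofBijective (fun x : ↥(V ⊓ Subgroup.centralizer (T : Set G)) => C.c x 0) ⟨?_, ?_⟩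
  · intro x y h
    have hx := C.mem_cent_T.1 x.2
    have hy := C.mem_cent_T.1 y.2
    exact Subtype.ext (C.c_inj _ hx.1 _ hy.1 (vec_ext h (by rw [hx.2, hy.2])))
  · intro a
    obtain ⟨x, hx, hxw⟩ := C.c_surj ![a, 0]
    exact ⟨⟨x, C.mem_cent_T.2 ⟨hx, by rw [hxw]; rfl⟩⟩, by simp [hxw]⟩

end Coord

end Cfsg.Agent.Lib.Helper46.NatMod
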