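import Mathlib
import Cfsg.Agent.Lib.Helper46.NatMod2

/-! More computations in a natural SL₂(F)-module in coordinates. -/

set_option autoImplicit false

namespace Cfsg.Agent.Lib.Helper46.NatMod

open Matrix Cfsg.Agent.Lib.Helper46.SL2Nat

namespace Coord

variable {F : Type*} [Field F] {G : Type*} [Group G] {V L T : Subgroup G} (C : Coord F V L T)
include C

lemma conj_mem_T {g : G} (hg : g ∈ L) (h10 : C.r g 1 0 = 0) {t : G} (ht : t ∈ T) :
    g * t * g⁻¹ ∈ T := by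
  have hL : g * t * g⁻¹ ∈ L := L.mul_mem (L.mul_mem hg (C.T_le ht)) (L.inv_mem hg)
  rw [C.mem_T _ hL, C.r_mul _ (L.mul_mem hg (C.T_le ht)) _ (L.inv_mem hg), C.r_mul _ hg _ (C.T_le ht),
    C.r_inv hg, C.r_T ht]
  have hd := det2 (C.r g)
  rw [h10] at hd
  constructor
  · rw [mul_00, mul_00, mul_01, inv_00, inv_10, h10]
    simp only [u_00, u_01, u_10, u_11]
    linear_combination hd
  · rw [mul_10, mul_10, mul_11, inv_00, inv_10, h10]
    simp

lemma mem_normalizer_T {g : G} (hg : g ∈ L) (h10 : C.r g 1 0 = 0) :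
    g ∈ Subgroup.normalizer (T : Set G) := by
  rw [Subgroup.mem_normalizer_iff]
  intro t
  constructor
  · exact C.conj_mem_T hg h10
  · intro h
    have h2 : C.r g⁻¹ 1 0 = 0 := by rw [C.r_inv hg, inv_10, h10, neg_zero]
    have := C.conj_mem_T (L.inv_mem hg) h2 h
    simpa [mul_assoc] using this

/-- `C_V(gTg⁻¹)` in coordinates -/
lemma mem_cent_conj {g : G} (hg : g ∈ L) {x : G} :
    x ∈ V ⊓ Subgroup.centralizer ((T.map (MulAut.conj g).toMonoidHom : Subgroup G) : Set G) ↔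
      x ∈ V ∧ C.r g 0 0 * C.c x 1 = C.r g 1 0 * C.c x 0 := by
  have key : x ∈ V ⊓ Subgroup.centralizer ((T.map (MulAut.conj g).toMonoidHom : Subgroup G) : Set G) ↔
      g⁻¹ * x * g⁻¹⁻¹ ∈ V ⊓ Subgroup.centralizer (T : Set G) := by
    rw [Subgroup.mem_inf, Subgroup.mem_inf]
    constructor
    · rintro ⟨hx, hc⟩
      refine ⟨C.act_mem _ (L.inv_mem hg) _ hx, ?_⟩
      rw [Subgroup.mem_centralizer_iff] at hc ⊢
      intro t ht
      have := hc (g * t * g⁻¹) ⟨t, ht, rfl⟩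
      rw [inv_inv]
      calc t * (g⁻¹ * x * g) = g⁻¹ * ((g * t * g⁻¹) * x) * g := by group
        _ = g⁻¹ * (x * (g * t * g⁻¹)) * g := by rw [this]
        _ = g⁻¹ * x * g * t := by group
    · rintro ⟨hx, hc⟩
      have hxV : x ∈ V := by
        have := C.act_mem _ hg _ hx
        simpa [mul_assoc] using this
      refine ⟨hxV, ?_⟩
      rw [Subgroup.mem_centralizer_iff] at hc ⊢
      rintro _ ⟨t, ht, rfl⟩
      have := hc t ht
      rw [inv_inv] at this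
      simp only [MulEquiv.coe_toMonoidHom, MulAut.conj_apply]
      calc g * t * g⁻¹ * x = g * (t * (g⁻¹ * x * g)) * g⁻¹ := by group
        _ = g * ((g⁻¹ * x * g) * t) * g⁻¹ := by rw [this]
        _ = x * (g * t * g⁻¹) := by group
  rw [key, C.mem_cent_T]
  constructor
  · rintro ⟨hx, h1⟩
    have hxV : x ∈ V := by
      have := C.act_mem _ hg _ hx
      simpa [mul_assoc] using this
    refine ⟨hxV, ?_⟩
    rw [C.act _ (L.inv_mem hg) _ hxV, mulVec_1, C.r_inv hg, inv_10, inv_11] at h1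
    linear_combination h1
  · rintro ⟨hx, h1⟩
    refine ⟨C.act_mem _ (L.inv_mem hg) _ hx, ?_⟩
    rw [C.act _ (L.inv_mem hg) _ hx, mulVec_1, C.r_inv hg, inv_10, inv_11]
    linear_combination h1

lemma exists_dg (a : F) (ha : a ≠ 0) :
    ∃ d ∈ L ⊓ Subgroup.normalizer (T : Set G), C.r d = dg a ha := by
  obtain ⟨d, hd, hda⟩ := C.r_surj (dg a ha)
  exact ⟨d, ⟨hd, C.mem_normalizer_T hd (by rw [hda]; rfl)⟩, hda⟩

lemma inf_eq_bot {g : G} (hg : g ∈ L) (h10 : C.r g 1 0 ≠ 0) :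
    (V ⊓ Subgroup.centralizer (T : Set G)) ⊓
      (V ⊓ Subgroup.centralizer ((T.map (MulAut.conj g).toMonoidHom : Subgroup G) : Set G)) = ⊥ := by
  rw [eq_bot_iff]
  intro x hx
  obtain ⟨h1, h2⟩ := Subgroup.mem_inf.1 hx
  rw [C.mem_cent_T] at h1
  rw [C.mem_cent_conj hg] at h2
  rw [Subgroup.mem_bot, ← C.c_eq_zero h1.1]
  have h3 := h2.2
  rw [h1.2, mul_zero] at h3
  apply vec_ext
  · exact (mul_eq_zero.1 h3.symm).resolve_left h10
  · exact h1.2

lemma sup_eq {g : G} (hg : g ∈ L) (h10 : C.r g 1 0 ≠ 0) :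
    (V ⊓ Subgroup.centralizer (T : Set G)) ⊔
      (V ⊓ Subgroup.centralizer ((T.map (MulAut.conj g).toMonoidHom : Subgroup G) : Set G)) = V := by
  apply le_antisymm (sup_le inf_le_left inf_le_left)
  intro x hx
  obtain ⟨a, ha, hac⟩ := C.c_surj ![C.c x 0 - C.c x 1 / C.r g 1 0 * C.r g 0 0, 0]
  obtain ⟨b, hb, hbc⟩ := C.c_surj ![C.c x 1 / C.r g 1 0 * C.r g 0 0, C.c x 1]
  have hxab : x = a * b := by
    apply C.c_inj _ hx _ (V.mul_mem ha hb)
    rw [C.c_mul _ ha _ hb, hac, hbc]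
    apply vec_ext <;> simp
  rw [hxab]
  apply Subgroup.mul_mem_sup
  · rw [C.mem_cent_T]
    exact ⟨ha, by rw [hac]; rfl⟩
  · rw [C.mem_cent_conj hg]
    refine ⟨hb, ?_⟩
    rw [hbc]
    simp only [Matrix.cons_val_zero, Matrix.cons_val_one]
    field_simp

lemma cent_eq_bot_of_coprime (p : ℕ) [Fact p.Prime] [CharP F p] {x : G} (hx : x ∈ L) (hx1 : x ≠ 1)
    (hcop : (orderOf x).Coprime p) : V ⊓ Subgroup.centralizer ({x} : Set G) = ⊥ := by
  rw [eq_bot_iff]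
  intro v hv
  obtain ⟨hvV, hvc⟩ := Subgroup.mem_inf.1 hv
  rw [Subgroup.mem_bot]
  by_contra hv1
  have hcv : C.c v ≠ 0 := fun h => hv1 ((C.c_eq_zero hvV).1 h)
  have hfix := (C.commute_iff hx hvV).1 (Subgroup.mem_centralizer_iff.1 hvc x rfl)
  obtain ⟨h, hh⟩ := exists_conj_mem_U_of_fix {C.r x} (C.c v) hcv (by
    intro y hy; rw [Set.mem_singleton_iff] at hy; rw [hy]; exact hfix)
  have h1 := hh _ rfl
  have h2 : (h⁻¹ * C.r x * h) ^ p = 1 := by
    rw [eq_u_of_mem h1, u_pow, nsmul_eq_mul, CharP.cast_eq_zero, zero_mul, u_zero]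
  have h3 : (C.r x) ^ p = 1 := by
    have : (h⁻¹ * C.r x * h) ^ p = h⁻¹ * (C.r x) ^ p * h := by
      have := conj_pow (a := h⁻¹) (b := C.r x) (i := p)
      rw [inv_inv] at this
      exact this
    rw [this] at h2
    have h4 : (C.r x) ^ p = h * 1 * h⁻¹ := by rw [← h2]; group
    rw [h4]; group
  rw [← C.r_pow hx, C.r_eq_one (L.pow_mem hx p)] at h3
  have h5 : orderOf x ∣ p := orderOf_dvd_of_pow_eq_one h3
  have h6 : orderOf x = 1 := Nat.Coprime.eq_one_of_dvd hcop h5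
  exact hx1 (orderOf_eq_one_iff.1 h6)

lemma conj_mem_of_normalizer {W : Subgroup G} {d x : G}
    (hd : d ∈ Subgroup.normalizer (W : Set G)) (hx : x ∈ W) : d * x * d⁻¹ ∈ W :=
  (Subgroup.mem_normalizer_iff.1 hd x).1 hx

lemma irr_bottom (W : Subgroup G) (hW : W ≤ V ⊓ Subgroup.centralizer (T : Set G))
    (hN : L ⊓ Subgroup.normalizer (T : Set G) ≤ Subgroup.normalizer (W : Set G)) :
    W = ⊥ ∨ W = V ⊓ Subgroup.centralizer (T : Set G) := by
  rcases W.bot_or_exists_ne_one with hbot | ⟨x, hxW, hx1⟩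
  · exact Or.inl hbot
  right
  apply le_antisymm hW
  intro y hy
  obtain ⟨hxV, hx2⟩ := C.mem_cent_T.1 (hW hxW)
  obtain ⟨hyV, hy2⟩ := C.mem_cent_T.1 hy
  have hx0 : C.c x 0 ≠ 0 := by
    intro h
    exact hx1 ((C.c_eq_zero hxV).1 (vec_ext h hx2))
  by_cases hy0 : C.c y 0 = 0
  · have : y = 1 := (C.c_eq_zero hyV).1 (vec_ext hy0 hy2)
    rw [this]; exact W.one_mem
  · obtain ⟨d, hd, hda⟩ := C.exists_dg (C.c y 0 / C.c x 0) (div_ne_zero hy0 hx0)
    have h1 := C.conj_mem_of_normalizer (hN hd) hxW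
    have h2 : y = d * x * d⁻¹ := by
      apply C.c_inj _ hyV _ (C.act_mem _ hd.1 _ hxV)
      rw [C.act _ hd.1 _ hxV, hda]
      apply vec_ext
      · rw [mulVec_0]
        simp only [dg_00, dg_01]
        field_simp
        ring
      · rw [mulVec_1, hx2, hy2]
        simp
    rw [h2]; exact h1

lemma irr_top (W : Subgroup G) (hW : V ⊓ Subgroup.centralizer (T : Set G) ≤ W) (hWV : W ≤ V)
    (hN : L ⊓ Subgroup.normalizer (T : Set G) ≤ Subgroup.normalizer (W : Set G)) :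
    W = V ⊓ Subgroup.centralizer (T : Set G) ∨ W = V := by
  by_cases hall : ∀ x ∈ W, C.c x 1 = 0
  · left
    apply le_antisymm _ hW
    intro x hx
    exact C.mem_cent_T.2 ⟨hWV hx, hall x hx⟩
  right
  push Not at hall
  obtain ⟨x, hxW, hx1⟩ := hall
  apply le_antisymm hWV
  intro y hyV
  have hxV := hWV hxW
  by_cases hy1 : C.c y 1 = 0
  · exact hW (C.mem_cent_T.2 ⟨hyV, hy1⟩)
  · obtain ⟨d, hd, hda⟩ := C.exists_dg (C.c x 1 / C.c y 1) (div_ne_zero hx1 hy1)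
    have h1 := C.conj_mem_of_normalizer (hN hd) hxW
    obtain ⟨z, hz, hzc⟩ := C.c_surj ![C.c y 0 - C.c x 1 / C.c y 1 * C.c x 0, 0]
    have hzW : z ∈ W := hW (C.mem_cent_T.2 ⟨hz, by rw [hzc]; rfl⟩)
    have h2 : y = d * x * d⁻¹ * z := by
      apply C.c_inj _ hyV _ (V.mul_mem (C.act_mem _ hd.1 _ hxV) hz)
      rw [C.c_mul _ (C.act_mem _ hd.1 _ hxV) _ hz, C.act _ hd.1 _ hxV, hda, hzc]
      apply vec_ext
      · rw [Pi.add_apply, mulVec_0]
        simp
      · rw [Pi.add_apply, mulVec_1]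
        simp only [dg_10, dg_11, Matrix.cons_val_one]
        field_simp
        simp
    rw [h2]; exact W.mul_mem h1 hzW

end Coord

end Cfsg.Agent.Lib.Helper46.NatMod
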